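import Mathlib
import Cfsg.Agent.Lib.IsomBlock

/-!
# A block of minimal dimension admits no commuting anti-self-adjoint operator with nonsquare square, except when `i ≡ 2 (4)`
-/

set_option autoImplicit false
set_option linter.unusedSimpArgs false
set_option linter.unusedVariables false
set_option linter.unusedSectionVars false

namespace Cfsg.Agent.Lib.SpGU

open Matrix Module Polynomial
open Cfsg.Agent.Lib.IsomBlock

universe u

variable {F : Type*} [Field F] {V : Type u} [AddCommGroup V] [Module F V] [FiniteDimensional F V]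

theorem comm_pow {T τ : V →ₗ[F] V} (hcomm : ∀ v, τ (T v) = T (τ v)) (n : ℕ) (v : V) : τ ((T ^ n) v) = (T ^ n) (τ v) := by
  induction n with
  | zero => simp
  | succ n ih => rw [pow_succ', Module.End.mul_apply, Module.End.mul_apply, hcomm, ih]

theorem comm_aeval {T τ : V →ₗ[F] V} (hcomm : ∀ v, τ (T v) = T (τ v)) (g : F[X]) (v : V) : τ (aeval T g v) = aeval T g (τ v) := by
  induction g using Polynomial.induction_on' with
  | add p q hp hq => simp only [map_add, LinearMap.add_apply, hp, hq]
  | monomial n a =>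
    simp only [aeval_monomial, Module.End.mul_apply, Module.algebraMap_end_apply, map_smul, comm_pow hcomm]

/-- An odd-dimensional subspace is not stable under an operator with nonsquare square. -/
theorem not_stable_of_odd {τ : V →ₗ[F] V} {s : F} (hs : ¬ IsSquare s) (hτ2 : ∀ v, τ (τ v) = s • v) {U : Submodule F V} (hU : Odd (finrank F U))
    (hst : ∀ u ∈ U, τ u ∈ U) : False := by
  let S : U →ₗ[F] U := τ.restrict hst
  have hS : ∀ u : U, ((S u : U) : V) = τ u := fun u => rfl
  have hSS : S * S = s • (1 : U →ₗ[F] U) := by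
    apply LinearMap.ext
    intro u
    apply Subtype.ext
    show τ (τ u) = s • (u : V)
    exact hτ2 _
  have h1 : LinearMap.det S * LinearMap.det S = s ^ finrank F U := by
    rw [← map_mul, hSS, LinearMap.det_smul, map_one, mul_one]
  obtain ⟨k, hk⟩ := hU
  have hs0 : s ≠ 0 := by
    rintro rfl
    exact hs ⟨0, by ring⟩
  apply hs
  refine ⟨LinearMap.det S * (s ^ k)⁻¹, ?_⟩
  have h3 : s ^ k ≠ 0 := pow_ne_zero _ hs0
  rw [hk, pow_succ, pow_mul] at h1
  field_simp
  rw [pow_two (LinearMap.det S), h1]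
  ring

variable [Fintype F] {r q : ℕ}

/-- Powers of an operator with square `s`. -/
theorem tau_pow_odd {τ : V →ₗ[F] V} {s : F} (hτ2 : ∀ v, τ (τ v) = s • v) (n : ℕ) (v : V) : (τ ^ (1 + 2 * n)) v = s ^ n • τ v := by
  induction n with
  | zero => simp
  | succ n ih =>
    have h1 : 1 + 2 * (n + 1) = 2 + (1 + 2 * n) := by ring
    rw [h1, pow_add, Module.End.mul_apply, ih, pow_two, Module.End.mul_apply, map_smul, map_smul, hτ2, smul_smul, pow_succ]

theorem K1 [hrf : Fact r.Prime] (hq : Fintype.card F = q) (hr2 : r ≠ 2) (hrF : (r : F) ≠ 0) (h2 : (2 : F) ≠ 0)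
    {B : V →ₗ[F] V →ₗ[F] F} (halt : ∀ v, B v v = 0) (hnd : ∀ v, (∀ w, B v w = 0) → v = 0) {T τ : V →ₗ[F] V}
    (hiso : ∀ u v, B (T u) (T v) = B u v) (hTr : T ^ r = 1) (hfree : ∀ u, T u = u → u = 0) (hfin : finrank F V = blockDim r q)
    {s : F} (hs : ¬ IsSquare s) (hτ2 : ∀ v, τ (τ v) = s • v) (hτB : ∀ u v, B (τ u) v = - B u (τ v)) (hcomm : ∀ v, τ (T v) = T (τ v)) :
    orderOf (q : ZMod r) % 4 = 2 := by
  classical
  have hr : r.Prime := hrf.out
  have hr0 : r ≠ 0 := hr.ne_zero
  have hrodd : Odd r := hr.odd_of_ne_two hr2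
  have hq0 : q ≠ 0 := by
    rw [← hq]
    exact Fintype.card_ne_zero
  have hs0 : s ≠ 0 := by
    rintro rfl
    exact hs ⟨0, by ring⟩
  have hB : GoodForm B := Or.inl halt
  have hanti : ∀ a b, B a b = - B b a := by
    intro a b
    have h1 := halt (a + b)
    simp only [map_add, LinearMap.add_apply, halt, zero_add, add_zero] at h1
    linear_combination h1
  set i := orderOf (q : ZMod r) with hi
  have hpos := blockDim_pos hq hrF
  have hnt : Nontrivial V := by
    apply Module.nontrivial_of_finrank_pos (R := F)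
    omega
  obtain ⟨v, hv0⟩ := exists_ne (0 : V)
  have hv : T v ≠ v := fun h => hv0 (hfree v h)
  have hmul : (X - C 1 : F[X]) * cyclotomic r F = X ^ r - 1 := Cfsg.Agent.Lib.PrimOrder.mul_cyc r
  have hkill : ∀ y, aeval T (X ^ r - 1 : F[X]) y = 0 := by
    intro y
    rw [map_sub, map_pow, aeval_X, hTr, map_one, sub_self]
    rfl
  have hw0 : T v - v ≠ 0 := sub_ne_zero.mpr hv
  have hwk : aeval T (cyclotomic r F) (T v - v) = 0 := by
    have h1 : T v - v = aeval T (X - C 1 : F[X]) v := by simp
    rw [h1, ← aeval_mul_apply, mul_comm, hmul]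
    exact hkill v
  obtain ⟨h, hh, hhd, w', hw'0, hw'⟩ := exists_factor_vec T _ _ rfl (cyclotomic_ne_zero r F) _ hw0 hwk
  have hdeg : h.natDegree = i := natDegree_factor hq hrF h hh hhd
  obtain ⟨U, huU, hUinv, hUfin, hUk, hUgen, hUs⟩ := exists_irr_span T h hh w' hw'0 hw'
  rw [hdeg] at hUfin
  have hi0 : i ≠ 0 := by
    rw [← hdeg]
    exact hh.natDegree_pos.ne'
  by_contra hmod
  by_cases hev : Even i
  · -- `4 ∣ i`
    obtain ⟨e, he⟩ := hev
    have hfinV : finrank F V = i := by
      rw [hfin]
      unfold blockDim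
      rw [if_pos ⟨e, he⟩]
    have hUtop : U = ⊤ := by
      apply Submodule.eq_top_of_finrank_eq
      rw [hUfin, hfinV]
    have hQ : r ∣ q ^ e + 1 := by
      haveI : Fact r.Prime := hrf
      have h1 : ((q : ZMod r) ^ e) * ((q : ZMod r) ^ e) = 1 := by
        rw [← pow_add, ← he, hi, pow_orderOf_eq_one]
      have h2' : (q : ZMod r) ^ e ≠ 1 := pow_ne_one_of_lt_orderOf (by omega) (by omega)
      have h3 : ((q : ZMod r) ^ e - 1) * ((q : ZMod r) ^ e + 1) = 0 := by linear_combination h1
      have h4 : (q : ZMod r) ^ e + 1 = 0 := (mul_eq_zero.mp h3).resolve_left (sub_ne_zero.mpr h2')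
      apply (ZMod.natCast_eq_zero_iff _ _).mp
      push_cast
      exact h4
    have hTQ : T ^ (q ^ e) = T ^ (r - 1) := by
      obtain ⟨k, hk⟩ := hQ
      have h1 : T ^ (q ^ e) * T = 1 := by
        rw [← pow_succ, hk, pow_mul, hTr, one_pow]
      calc T ^ (q ^ e) = T ^ (q ^ e) * (T * T ^ (r - 1)) := by rw [T_mul_inv hr0 hTr, mul_one]
        _ = T ^ (r - 1) := by rw [← mul_assoc, h1, one_mul]
    obtain ⟨g, hg⟩ := hUgen (τ w') (by rw [hUtop]; trivial)
    have hτg : τ = aeval T g := by
      apply LinearMap.ext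
      intro u
      obtain ⟨f, rfl⟩ := hUgen u (by rw [hUtop]; trivial)
      rw [comm_aeval hcomm, hg, aeval_comm]
    -- `e` is even
    have he2 : Even e := by
      by_contra hne
      obtain ⟨k, hk⟩ := Nat.not_even_iff_odd.mp hne
      apply hmod
      omega
    obtain ⟨e', he'⟩ := he2
    have hqodd : Odd q := by
      rw [← hq]
      have hc : ringChar F ≠ 2 := by
        intro h
        apply h2
        have := ringChar.Nat.cast_ringChar (R := F)
        rw [h] at this
        simpa using this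
      exact Nat.odd_iff.mpr (FiniteField.odd_card_of_char_ne_two hc)
    have hq1 : 1 ≤ q := by omega
    obtain ⟨m, hm⟩ : ∃ m, q ^ e = 1 + 2 * ((q - 1) * m) := by
      obtain ⟨k, hk⟩ := hqodd
      have h1 : (q ^ 2 - 1) ∣ (q ^ 2) ^ e' - 1 ^ e' := Nat.sub_dvd_pow_sub_pow _ _ _
      rw [one_pow] at h1
      obtain ⟨l, hl⟩ := h1
      have h3 : q ^ 2 - 1 = 2 * ((q - 1) * (k + 1)) := by
        subst hk
        have : (2 * k + 1) ^ 2 = 2 * (2 * k + 1 - 1) * (k + 1) + 1 := by
          simp only [Nat.add_sub_cancel]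
          ring
        rw [this, Nat.add_sub_cancel]
        simp only [Nat.add_sub_cancel]
        ring
      refine ⟨(k + 1) * l, ?_⟩
      have h4 : q ^ e = (q ^ 2) ^ e' := by
        rw [← pow_mul, he']
        congr 1
        ring
      have h5 : 1 ≤ (q ^ 2) ^ e' := Nat.one_le_pow _ _ (by positivity)
      rw [h4]
      have h6 : (q ^ 2) ^ e' = 1 + (q ^ 2 - 1) * l := by omega
      rw [h6, h3]
      ring
    have hsm : s ^ ((q - 1) * m) = 1 := by
      rw [pow_mul, ← hq, FiniteField.pow_card_sub_one_eq_one s hs0, one_pow]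
    have hτpow : τ ^ (q ^ e) = τ := by
      apply LinearMap.ext
      intro u
      rw [hm, tau_pow_odd hτ2, hsm, one_smul]
    have hself : ∀ u v, B (τ u) v = B u (τ v) := by
      intro u v
      conv_lhs => rw [hτg]
      rw [form_aeval hiso hr0 hTr, ← hTQ, ← Polynomial.expand_aeval, expand_card_pow hq, map_pow, ← hτg, hτpow]
    have hzero : ∀ u v, B u (τ v) = 0 := by
      intro u v
      have h1 := hself u v
      rw [hτB] at h1
      have h3 : (2 : F) * B u (τ v) = 0 := by linear_combination -h1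
      exact (mul_eq_zero.mp h3).resolve_left h2
    have hτ0 : ∀ v, τ v = 0 := by
      intro v
      apply hnd
      intro w
      rw [hanti, hzero, neg_zero]
    apply hw'0
    have h1 := hτ2 w'
    rw [hτ0] at h1
    exact (smul_eq_zero.mp h1.symm).resolve_left hs0
  · -- `i` odd
    have hfinV : finrank F V = 2 * i := by
      rw [hfin]
      unfold blockDim
      rw [if_neg hev]
    have hoddU : ¬ Even (finrank F U) := by
      rw [hUfin]
      exact hev
    have hfreeU : FixFree T U := fun u _ hu => hfree u hu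
    have hUti : ∀ a ∈ U, ∀ b ∈ U, B a b = 0 :=
      (rad_dichotomy hB hiso hr0 hTr hUinv hUs).resolve_left (fun hnd' => hoddU (even_of_fixfree hB hiso hrodd hTr hnd' hUinv hfreeU))
    let B' : V →ₗ[F] V →ₗ[F] F := B.compl₂ τ
    have hB'a : ∀ a b, B' a b = B a (τ b) := fun a b => rfl
    have hB' : GoodForm B' := Or.inr ⟨h2, fun a b => by
      rw [hB'a, hB'a, hanti b, hτB, neg_neg]⟩
    have hisoB' : ∀ a b, B' (T a) (T b) = B' a b := by
      intro a b
      rw [hB'a, hB'a, hcomm, hiso]
    have hUti' : ∀ a ∈ U, ∀ b ∈ U, B' a b = 0 :=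
      (rad_dichotomy hB' hisoB' hr0 hTr hUinv hUs).resolve_left (fun hnd' => hoddU (even_of_fixfree hB' hisoB' hrodd hTr hnd' hUinv hfreeU))
    have hτinj : Function.Injective τ := by
      rw [← LinearMap.ker_eq_bot, LinearMap.ker_eq_bot']
      intro a ha
      have h1 := hτ2 a
      rw [ha, map_zero] at h1
      exact (smul_eq_zero.mp h1.symm).resolve_left hs0
    have hτUfin : finrank F (U.map τ) = finrank F U := (Submodule.equivMapOfInjective τ hτinj U).finrank_eq.symm
    have hτUinv : InvOn T (U.map τ) := by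
      rintro _ ⟨a, ha, rfl⟩
      exact ⟨T a, hUinv a ha, hcomm a⟩
    rcases hUs (U ⊓ U.map τ) (inv_inf hUinv hτUinv) inf_le_left with h0 | h0
    · have hdim := Submodule.finrank_sup_add_finrank_inf_eq U (U.map τ)
      rw [h0, finrank_bot, add_zero, hτUfin, hUfin] at hdim
      have htop : U ⊔ U.map τ = ⊤ := by
        apply Submodule.eq_top_of_finrank_eq
        rw [hdim, hfinV]
        ring
      apply hw'0
      apply hnd
      intro y
      have hy : y ∈ U ⊔ U.map τ := by rw [htop]; trivial
      obtain ⟨a, ha, _, ⟨b, hb, rfl⟩, rfl⟩ := Submodule.mem_sup.mp hy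
      rw [map_add, hUti w' huU a ha]
      exact (zero_add _).trans (hUti' w' huU b hb)
    · have hle : U ≤ U.map τ := by
        intro u hu
        have h3 : u ∈ U ⊓ U.map τ := by
          rw [h0]
          exact hu
        exact h3.2
      have heq : U.map τ = U := (Submodule.eq_of_le_of_finrank_eq hle (by rw [hτUfin])).symm
      exact not_stable_of_odd hs hτ2 (Nat.not_even_iff_odd.mp hoddU) (fun u hu => by
        rw [← heq]
        exact ⟨u, hu, rfl⟩)

end Cfsg.Agent.Lib.SpGU
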