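import Mathlib
import Cfsg.Prelude.Def_GeometricClasses
import Cfsg.Agent.Lib.SpInvol
import Cfsg.Agent.Lib.FieldSub

/-!
# Anti-self-adjoint operators with nonzero scalar square on a symplectic space: normal form
-/

set_option autoImplicit false
set_option linter.unusedSimpArgs false
set_option linter.unusedVariables false
set_option linter.unusedSectionVars false

namespace Cfsg.Agent.Lib.SpGU

open Matrix Module Cfsg Cfsg.Geo
open Cfsg.Agent.Lib.SympForm

universe u

variable {F : Type*} [Field F]

section abstractForms

variable {V : Type u} [AddCommGroup V] [Module F V] [FiniteDimensional F V]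

/-- Normal form for `T` with `T² = s`, anti-self-adjoint. -/
theorem exists_T_basis [Fintype F] (h2 : (2 : F) ≠ 0) (s : F) (hs : s ≠ 0) (m : ℕ) : ∀ (V : Type u) [AddCommGroup V] [Module F V] [FiniteDimensional F V]
    (B : V →ₗ[F] V →ₗ[F] F) (halt : ∀ v, B v v = 0) (hnd : ∀ v, (∀ w, B v w = 0) → v = 0)
    (T : V →ₗ[F] V) (hT : ∀ v, T (T v) = s • v) (hB : ∀ u v, B (T u) v = - B u (T v)) (hd : finrank F V = 2 * m),
    ∃ e : Fin m → V, (∀ i j, B (e i) (T (e j)) = if i = j then 1 else 0) ∧ ∀ i j, B (e i) (e j) = 0 := by
  induction m with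
  | zero =>
    intro V _ _ _ B halt hnd T hT hB hd
    exact ⟨Fin.elim0, fun i => i.elim0, fun i => i.elim0⟩
  | succ m ih =>
    intro V _ _ _ B halt hnd T hT hB hd
    classical
    have hskew : ∀ a b, B a b = - B b a := by
      intro a b
      have := halt (a + b)
      simp only [map_add, LinearMap.add_apply, halt, zero_add, add_zero] at this
      exact eq_neg_of_add_eq_zero_right this
    have hsymm : ∀ u v, B u (T v) = B v (T u) := by
      intro u v
      have h1 := hB u v
      rw [hskew] at h1
      linear_combination h1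
    -- a vector with `f(v, T v) ≠ 0`
    have hex : ∃ v, B v (T v) ≠ 0 := by
      by_contra hcon
      have hcon' : ∀ v, B v (T v) = 0 := fun v => by
        by_contra h
        exact hcon ⟨v, h⟩
      have hall : ∀ u v, B u (T v) = 0 := by
        intro u v
        have h1 := hcon' (u + v)
        simp only [map_add, LinearMap.add_apply, hcon', zero_add, add_zero] at h1
        rw [hsymm v u] at h1
        have h3 : (2 : F) * B u (T v) = 0 := by linear_combination h1
        exact (mul_eq_zero.mp h3).resolve_left h2
      have hV : ∀ v : V, v = 0 := by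
        intro v
        apply hnd
        intro w
        have h1 := hall v (s⁻¹ • T w)
        rw [map_smul, hT, smul_smul, inv_mul_cancel₀ hs, one_smul] at h1
        exact h1
      have h4 : finrank F V = 0 := by
        have : Subsingleton V := ⟨fun a b => by rw [hV a, hV b]⟩
        exact Module.finrank_zero_of_subsingleton
      omega
    obtain ⟨v, hv⟩ := hex
    obtain ⟨α, β, hαβ⟩ := Cfsg.Agent.Lib.SqScalar.exists_norm_eq s (B v (T v))⁻¹ hs
    let e₀ : V := α • v + β • T v
    have hTv : B (T v) v = - B v (T v) := hskew _ _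
    have hTT : B (T v) (T v) = 0 := halt _
    have hvv : B v v = 0 := halt _
    have he₀ : B e₀ (T e₀) = 1 := by
      simp only [e₀, map_add, map_smul, LinearMap.add_apply, LinearMap.smul_apply, hT, smul_eq_mul, hTv, hTT, hvv]
      have h5 : (α ^ 2 - s * β ^ 2) * B v (T v) = 1 := by
        rw [hαβ, inv_mul_cancel₀ hv]
      linear_combination h5
    have hTe₀ : B (T e₀) e₀ = -1 := by rw [hskew, he₀]
    have he₀e₀ : B e₀ e₀ = 0 := halt _
    have hTT₀ : B (T e₀) (T e₀) = 0 := halt _
    -- the perp
    let W : Submodule F V := LinearMap.ker (B e₀) ⊓ LinearMap.ker (B (T e₀))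
    have hWm : ∀ w, w ∈ W ↔ B e₀ w = 0 ∧ B (T e₀) w = 0 := by
      intro w
      simp [W]
    have hdW : finrank F W = 2 * m := by
      let P : Submodule F V := Submodule.span F {e₀, T e₀}
      have hliP : LinearIndependent F ![e₀, T e₀] := by
        rw [LinearIndependent.pair_iff]
        intro s t hst
        have h6 := congrArg (B e₀) hst
        simp only [map_add, map_smul, smul_eq_mul, he₀e₀, he₀, map_zero] at h6
        have h7 := congrArg (B (T e₀)) hst
        simp only [map_add, map_smul, smul_eq_mul, hTe₀, hTT₀, map_zero] at h7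
        constructor
        · linear_combination -h7
        · linear_combination h6
      have hfP : finrank F P = 2 := by
        have := finrank_span_eq_card hliP
        simp only [Fintype.card_fin] at this
        have hset : Set.range ![e₀, T e₀] = {e₀, T e₀} := by
          simp [Matrix.range_cons, Set.pair_comm]
        rwa [hset] at this
      have hcP : IsCompl P W := by
        constructor
        · rw [Submodule.disjoint_def]
          intro u hu hu'
          obtain ⟨s, t, rfl⟩ := Submodule.mem_span_pair.mp hu
          rw [hWm] at hu'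
          obtain ⟨h8, h9⟩ := hu'
          simp only [map_add, map_smul, smul_eq_mul, he₀e₀, he₀, hTe₀, hTT₀] at h8 h9
          have hs : s = 0 := by linear_combination -h9
          have ht : t = 0 := by linear_combination h8
          rw [hs, ht]
          simp
        · rw [codisjoint_iff, eq_top_iff]
          intro u _
          have hu : u = (B u (T e₀) • e₀ + (- B u e₀) • T e₀) + (u - (B u (T e₀) • e₀ + (- B u e₀) • T e₀)) := by abel
          rw [hu]
          apply Submodule.add_mem_sup
          · exact Submodule.mem_span_pair.mpr ⟨_, _, rfl⟩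
          · rw [hWm]
            constructor
            · simp only [map_add, map_sub, map_smul, smul_eq_mul, he₀e₀, he₀, map_neg]
              rw [hskew e₀ u]
              ring
            · simp only [map_add, map_sub, map_smul, smul_eq_mul, hTe₀, hTT₀, map_neg]
              rw [hskew (T e₀) u]
              ring
      have := Submodule.finrank_add_eq_of_isCompl hcP
      rw [hfP, hd] at this
      omega
    have hWT : ∀ w ∈ W, T w ∈ W := by
      intro w hw
      rw [hWm] at hw ⊢
      constructor
      · have := hB e₀ w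
        rw [hw.2] at this
        linear_combination this
      · rw [hB, hT, map_smul, hw.1, smul_zero, neg_zero]
    let BW : W →ₗ[F] W →ₗ[F] F := B.domRestrict₁₂ W W
    have hBW : ∀ a b, BW a b = B a b := fun a b => rfl
    let TW : W →ₗ[F] W := T.restrict hWT
    have hTW : ∀ a, ((TW a : W) : V) = T a := fun a => rfl
    obtain ⟨e', he'1, he'2⟩ := ih W BW (fun v => by rw [hBW]; exact halt _) (fun w hw => by
      apply Subtype.ext
      apply hnd
      intro u
      -- decompose
      have hu : u = (B u (T e₀) • e₀ + (- B u e₀) • T e₀) + (u - (B u (T e₀) • e₀ + (- B u e₀) • T e₀)) := by abel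
      have hrest : (u - (B u (T e₀) • e₀ + (- B u e₀) • T e₀)) ∈ W := by
        rw [hWm]
        constructor
        · simp only [map_add, map_sub, map_smul, smul_eq_mul, he₀e₀, he₀, map_neg]
          rw [hskew e₀ u]
          ring
        · simp only [map_add, map_sub, map_smul, smul_eq_mul, hTe₀, hTT₀, map_neg]
          rw [hskew (T e₀) u]
          ring
      have h10 : B (w : V) (u - (B u (T e₀) • e₀ + (- B u e₀) • T e₀)) = 0 := hw ⟨_, hrest⟩
      have h11 := (hWm _).mp w.2
      have hwe : B (w : V) e₀ = 0 := by rw [hskew, h11.1, neg_zero]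
      have hwT : B (w : V) (T e₀) = 0 := by rw [hskew, h11.2, neg_zero]
      have h12 := congrArg (B (w : V)) hu
      rw [h12, map_add, h10]
      simp [map_add, map_smul, hwe, hwT]) TW (fun a => Subtype.ext (by
        rw [hTW, hTW, hT]
        rfl)) (fun a b => by rw [hBW, hTW, hBW, hTW, hB]) hdW
    have hmemW : ∀ i, B e₀ (e' i : V) = 0 ∧ B (T e₀) (e' i : V) = 0 := fun i => (hWm _).mp (e' i).2
    have hmemWT : ∀ i, B e₀ (T (e' i : V)) = 0 ∧ B (T e₀) (T (e' i : V)) = 0 := fun i => (hWm _).mp (hWT _ (e' i).2)
    refine ⟨Fin.cons e₀ (fun i => (e' i : V)), ?_, ?_⟩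
    · intro i j
      refine Fin.cases ?_ (fun i => ?_) i <;> refine Fin.cases ?_ (fun j => ?_) j
      · simpa using he₀
      · simpa [Fin.cons_succ, (Fin.succ_ne_zero j).symm] using (hmemWT j).1
      · have h1 : B (e' i : V) (T e₀) = 0 := by rw [hskew, (hmemW i).2, neg_zero]
        simpa [Fin.cons_succ, Fin.succ_ne_zero i] using h1
      · have h1 : B (e' i : V) (T (e' j : V)) = if i = j then 1 else 0 := he'1 i j
        simpa [Fin.cons_succ, Fin.succ_inj] using h1
    · intro i j
      refine Fin.cases ?_ (fun i => ?_) i <;> refine Fin.cases ?_ (fun j => ?_) j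
      · simpa using he₀e₀
      · simpa [Fin.cons_succ] using (hmemW j).1
      · have h1 : B (e' i : V) e₀ = 0 := by rw [hskew, (hmemW i).1, neg_zero]
        simpa [Fin.cons_succ] using h1
      · have h1 : B (e' i : V) (e' j : V) = 0 := he'2 i j
        simpa [Fin.cons_succ] using h1

/-- The standard operator with square `s`. -/
def Sst (s : F) {m : ℕ} (u : Fin m ⊕ Fin m → F) : Fin m ⊕ Fin m → F := Sum.elim (fun i => u (Sum.inr i)) (fun i => s * u (Sum.inl i))

@[simp] theorem Sst_inl (s : F) {m : ℕ} (u : Fin m ⊕ Fin m → F) (i : Fin m) : Sst s u (Sum.inl i) = u (Sum.inr i) := rfl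
@[simp] theorem Sst_inr (s : F) {m : ℕ} (u : Fin m ⊕ Fin m → F) (i : Fin m) : Sst s u (Sum.inr i) = s * u (Sum.inl i) := rfl

theorem exists_T_std [Fintype F] (h2 : (2 : F) ≠ 0) (s : F) (hs : s ≠ 0) {m : ℕ} (B : V →ₗ[F] V →ₗ[F] F) (halt : ∀ v, B v v = 0)
    (hnd : ∀ v, (∀ w, B v w = 0) → v = 0) (T : V →ₗ[F] V) (hT : ∀ v, T (T v) = s • v) (hB : ∀ u v, B (T u) v = - B u (T v))
    (hd : finrank F V = 2 * m) :
    ∃ E : (Fin m ⊕ Fin m → F) ≃ₗ[F] V, (∀ u v, B (E u) (E v) = sympForm m F u v) ∧ ∀ u, T (E u) = E (Sst s u) := by
  classical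
  obtain ⟨e, he1, he2⟩ := exists_T_basis h2 s hs m V B halt hnd T hT hB hd
  have hskew : ∀ a b, B a b = - B b a := by
    intro a b
    have := halt (a + b)
    simp only [map_add, LinearMap.add_apply, halt, zero_add, add_zero] at this
    exact eq_neg_of_add_eq_zero_right this
  let b : Fin m ⊕ Fin m → V := Sum.elim (fun i => T (e i)) e
  let L : (Fin m ⊕ Fin m → F) →ₗ[F] V := Fintype.linearCombination F b
  have hLs : ∀ a, L (Pi.single a 1) = b a := fun a => Fintype.linearCombination_apply_single F b a 1 |>.trans (one_smul _ _)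
  have hbil : B.compl₁₂ L L = Cfsg.Agent.Lib.SympWitt.sympB m F := by
    apply (Pi.basisFun F (Fin m ⊕ Fin m)).ext
    intro a
    apply (Pi.basisFun F (Fin m ⊕ Fin m)).ext
    intro a'
    simp only [Pi.basisFun_apply, LinearMap.compl₁₂_apply, hLs, Cfsg.Agent.Lib.SympWitt.sympB_apply, sympForm_apply]
    rcases a with i | i <;> rcases a' with j | j
    · simp only [b, Sum.elim_inl, hB, hT, map_smul, he2]
      simp [Pi.single_apply]
    · simp only [b, Sum.elim_inl, Sum.elim_inr, hB, he1]
      simp [Pi.single_apply, eq_comm]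
    · simp only [b, Sum.elim_inl, Sum.elim_inr]
      rw [he1 i j]
      simp [Pi.single_apply]
      by_cases h : i = j <;> simp [h, eq_comm]
    · simp only [b, Sum.elim_inr, he2]
      simp [Pi.single_apply]
  have hLB : ∀ u v, B (L u) (L v) = sympForm m F u v := fun u v => by
    have := LinearMap.congr_fun (LinearMap.congr_fun hbil u) v
    exact this
  have hinj : Function.Injective L := by
    rw [← LinearMap.ker_eq_bot, LinearMap.ker_eq_bot']
    intro u hu
    apply Cfsg.Agent.Lib.SympWitt.eq_zero_of_forall_sympForm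
    intro w
    rw [← hLB, hu, map_zero, LinearMap.zero_apply]
  let E : (Fin m ⊕ Fin m → F) ≃ₗ[F] V := LinearEquiv.ofInjectiveOfFinrankEq L hinj (by
    rw [hd]
    simp [two_mul])
  have hE : ∀ u, E u = L u := fun u => by
    simp [E, LinearEquiv.ofInjectiveOfFinrankEq]
  refine ⟨E, fun u v => by rw [hE, hE, hLB], ?_⟩
  intro u
  rw [hE, hE]
  show T (Fintype.linearCombination F b u) = Fintype.linearCombination F b (Sst s u)
  rw [Fintype.linearCombination_apply, Fintype.linearCombination_apply, map_sum, Fintype.sum_sum_type, Fintype.sum_sum_type,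
    add_comm]
  simp only [map_smul, b, Sum.elim_inl, Sum.elim_inr, hT, Sst_inl, Sst_inr, smul_smul]
  congr 1
  · refine Finset.sum_congr rfl fun i _ => ?_
    rw [mul_comm]

end abstractForms

end Cfsg.Agent.Lib.SpGU
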