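import Mathlib
import Cfsg.Agent.Lib.SpGU.NormalForm

/-!
# Degree two field subalgebras closed under, but not fixed by, the symplectic adjoint
-/

set_option autoImplicit false
set_option linter.unusedSimpArgs false
set_option linter.unusedVariables false
set_option linter.unusedSectionVars false

namespace Cfsg.Agent.Lib.SpGU

open Matrix Module Cfsg Cfsg.Geo
open Cfsg.Agent.Lib.SympForm Cfsg.Agent.Lib.FieldSub

variable {F : Type*} [Field F] {d : ℕ}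

/-- `T` is a generator of `K` with square `s` that is anti-self-adjoint. -/
structure KStd (K : Subalgebra F (Matrix (Fin d ⊕ Fin d) (Fin d ⊕ Fin d) F)) (s : F) (T : Matrix (Fin d ⊕ Fin d) (Fin d ⊕ Fin d) F) : Prop where
  mem : T ∈ K
  sq : T * T = s • (1 : Matrix (Fin d ⊕ Fin d) (Fin d ⊕ Fin d) F)
  adj : ∀ u v, sympForm d F (T *ᵥ u) v = - sympForm d F u (T *ᵥ v)
  span : ∀ k ∈ K, ∃ α β : F, k = α • (1 : Matrix (Fin d ⊕ Fin d) (Fin d ⊕ Fin d) F) + β • T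
  ns : ∀ z : F, T ≠ z • (1 : Matrix (Fin d ⊕ Fin d) (Fin d ⊕ Fin d) F)

variable {K : Subalgebra F (Matrix (Fin d ⊕ Fin d) (Fin d ⊕ Fin d) F)}

theorem eq_zero_of_all_zero {T : Matrix (Fin d ⊕ Fin d) (Fin d ⊕ Fin d) F} (h : ∀ u, T *ᵥ u = 0) : T = 0 := by
  apply Matrix.toLin'.injective
  apply LinearMap.ext
  intro v
  simp [Matrix.toLin'_apply, h]

theorem exists_KStd [Fintype F] (hK : IsFieldSubalgebra 2 K) (hKf : IsAdjointClosedFor (sympForm d F) K)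
    (hKns : ¬ IsSelfAdjointFor (sympForm d F) K) (h2 : (2 : F) ≠ 0) {s : F} (hs : ¬ IsSquare s) : ∃ T, KStd K s T := by
  classical
  unfold IsSelfAdjointFor at hKns
  push Not at hKns
  obtain ⟨k, hk, u₀, v₀, huv⟩ := hKns
  obtain ⟨k', hk', hadj⟩ := hKf k hk
  have hadj' : ∀ u v, sympForm d F (k' *ᵥ u) v = sympForm d F u (k *ᵥ v) := by
    intro u v
    rw [sympForm_antisymm, ← hadj, sympForm_antisymm, neg_neg]
  set T₁ := k - k' with hT₁
  have hT₁mem : T₁ ∈ K := K.sub_mem hk hk'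
  have hT₁adj : ∀ u v, sympForm d F (T₁ *ᵥ u) v = - sympForm d F u (T₁ *ᵥ v) := by
    intro u v
    simp only [hT₁, Matrix.sub_mulVec, sympForm_sub_left, sympForm_sub_right, hadj, hadj']
    ring
  have hT₁ne : T₁ ≠ 0 := by
    intro h
    have h1 : k = k' := sub_eq_zero.mp h
    apply huv
    rw [hadj, h1]
  have hnzT : ∀ u, (∀ v, sympForm d F (T₁ *ᵥ u) v = 0) → T₁ *ᵥ u = 0 := fun u h => Cfsg.Agent.Lib.SympWitt.eq_zero_of_forall_sympForm h
  have hns₁ : ∀ z : F, T₁ ≠ z • (1 : Matrix (Fin d ⊕ Fin d) (Fin d ⊕ Fin d) F) := by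
    intro z hz
    have hz0 : z ≠ 0 := by
      rintro rfl
      apply hT₁ne
      rw [hz, zero_smul]
    apply hT₁ne
    apply eq_zero_of_all_zero
    intro u
    apply hnzT
    intro v
    have h1 := hT₁adj u v
    rw [hz, Matrix.smul_mulVec, Matrix.smul_mulVec, Matrix.one_mulVec, Matrix.one_mulVec, sympForm_smul_left, sympForm_smul_right] at h1
    have h3 : sympForm d F u v = 0 := by
      have h4 : (2 * z) * sympForm d F u v = 0 := by linear_combination h1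
      exact (mul_eq_zero.mp h4).resolve_left (mul_ne_zero h2 hz0)
    rw [hz, Matrix.smul_mulVec, Matrix.one_mulVec, sympForm_smul_left, h3, mul_zero]
  -- spanning
  obtain ⟨ω, hω, hωns, hωg⟩ := exists_gen hK
  obtain ⟨a, b, hab⟩ := hωg T₁ hT₁mem
  have hb : b ≠ 0 := by
    rintro rfl
    apply hns₁ a
    rw [hab, zero_smul, add_zero]
  have hspan₁ : ∀ k ∈ K, ∃ α β : F, k = α • (1 : Matrix (Fin d ⊕ Fin d) (Fin d ⊕ Fin d) F) + β • T₁ := by
    intro l hl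
    obtain ⟨α, β, hαβ⟩ := hωg l hl
    refine ⟨α - β * b⁻¹ * a, β * b⁻¹, ?_⟩
    rw [hαβ, hab, sub_smul, smul_add, smul_smul, smul_smul, mul_assoc β b⁻¹ b, inv_mul_cancel₀ hb, mul_one, mul_assoc β]
    abel
  -- the square
  obtain ⟨α, β, hαβ⟩ := hspan₁ (T₁ * T₁) (K.mul_mem hT₁mem hT₁mem)
  have hβ : β = 0 := by
    by_contra hβ
    apply hT₁ne
    apply eq_zero_of_all_zero
    intro u
    apply hnzT
    intro v
    have h1 : sympForm d F ((T₁ * T₁) *ᵥ u) v = sympForm d F u ((T₁ * T₁) *ᵥ v) := by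
      rw [← Matrix.mulVec_mulVec, ← Matrix.mulVec_mulVec, hT₁adj, hT₁adj, neg_neg]
    rw [hαβ, Matrix.add_mulVec, Matrix.add_mulVec, Matrix.smul_mulVec, Matrix.smul_mulVec, Matrix.smul_mulVec, Matrix.smul_mulVec, Matrix.one_mulVec,
      Matrix.one_mulVec, sympForm_add_left, sympForm_add_right, sympForm_smul_left, sympForm_smul_left, sympForm_smul_right, sympForm_smul_right, hT₁adj] at h1
    have h4 : (2 * β) * sympForm d F u (T₁ *ᵥ v) = 0 := by linear_combination -h1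
    have h5 : sympForm d F u (T₁ *ᵥ v) = 0 := (mul_eq_zero.mp h4).resolve_left (mul_ne_zero h2 hβ)
    rw [hT₁adj, h5, neg_zero]
  subst hβ
  rw [zero_smul, add_zero] at hαβ
  have hα : ¬ IsSquare α := by
    rintro ⟨c, hc⟩
    have h1 : (T₁ - c • (1 : Matrix (Fin d ⊕ Fin d) (Fin d ⊕ Fin d) F)) * (T₁ + c • 1) = 0 := by
      have h3 : (T₁ - c • (1 : Matrix (Fin d ⊕ Fin d) (Fin d ⊕ Fin d) F)) * (T₁ + c • 1) = T₁ * T₁ - (c * c) • 1 := by
        simp only [sub_mul, mul_add, Matrix.mul_smul, Matrix.smul_mul, Matrix.mul_one, Matrix.one_mul, smul_add, smul_smul]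
        abel
      rw [h3, hαβ, hc, sub_self]
    have h3 := K_no_zero hK (K.sub_mem hT₁mem (scalar_mem c)) (sub_ne_zero.mpr (hns₁ c)) h1
    apply hns₁ (-c)
    rw [neg_smul]
    exact eq_neg_of_add_eq_zero_left h3
  have hα0 : α ≠ 0 := by
    rintro rfl
    exact hα ⟨0, by ring⟩
  have hsq : IsSquare (s * α) := by
    have hs0 : s ≠ 0 := by
      rintro rfl
      exact hs ⟨0, by ring⟩
    have hodd : ringChar F ≠ 2 := by
      intro h
      apply h2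
      have := ringChar.Nat.cast_ringChar (R := F)
      rw [h] at this
      simpa using this
    have h1 := (quadraticChar_neg_one_iff_not_isSquare (F := F)).mpr hs
    have h3 := (quadraticChar_neg_one_iff_not_isSquare (F := F)).mpr hα
    have h4 : quadraticChar F (s * α) = 1 := by
      rw [map_mul, h1, h3]
      norm_num
    exact (quadraticChar_one_iff_isSquare (mul_ne_zero hs0 hα0)).mp h4
  obtain ⟨c, hc⟩ := hsq
  have hs0 : s ≠ 0 := by
    rintro rfl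
    exact hs ⟨0, by ring⟩
  have hc0 : c ≠ 0 := by
    rintro rfl
    rw [mul_zero] at hc
    exact (mul_ne_zero hs0 hα0) hc
  set t := c / α with ht
  have ht0 : t ≠ 0 := div_ne_zero hc0 hα0
  have ht2 : t * t * α = s := by
    rw [ht]
    field_simp
    linear_combination -hc
  refine ⟨t • T₁, K.smul_mem hT₁mem t, ?_, ?_, ?_, ?_⟩
  · rw [Matrix.smul_mul, Matrix.mul_smul, hαβ, smul_smul, smul_smul, ht2]
  · intro u v
    rw [Matrix.smul_mulVec, Matrix.smul_mulVec, sympForm_smul_left, sympForm_smul_right, hT₁adj]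
    ring
  · intro l hl
    obtain ⟨α', β', h⟩ := hspan₁ l hl
    refine ⟨α', β' * t⁻¹, ?_⟩
    rw [h, smul_smul, mul_assoc, inv_mul_cancel₀ ht0, mul_one]
  · intro z hz
    apply hns₁ (t⁻¹ * z)
    rw [← smul_smul, ← hz, smul_smul, inv_mul_cancel₀ ht0, one_smul]

/-- Elements inverting or centralizing `T` up to a scalar normalize `K`. -/
theorem mem_normalizer_of_conj {s : F} {T : Matrix (Fin d ⊕ Fin d) (Fin d ⊕ Fin d) F} (hT : KStd K s T) (y : GL (Fin d ⊕ Fin d) F) (ε : F) (hε : ε ≠ 0)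
    (hy : (y : Matrix (Fin d ⊕ Fin d) (Fin d ⊕ Fin d) F) * T = ε • (T * y)) : y ∈ subalgebraNormalizer K := by
  have hyi : (y : Matrix (Fin d ⊕ Fin d) (Fin d ⊕ Fin d) F) * ((y⁻¹ : GL (Fin d ⊕ Fin d) F) : Matrix (Fin d ⊕ Fin d) (Fin d ⊕ Fin d) F) = 1 := by
    rw [← Units.val_mul, mul_inv_cancel]; rfl
  have hiy : ((y⁻¹ : GL (Fin d ⊕ Fin d) F) : Matrix (Fin d ⊕ Fin d) (Fin d ⊕ Fin d) F) * (y : Matrix (Fin d ⊕ Fin d) (Fin d ⊕ Fin d) F) = 1 := by
    rw [← Units.val_mul, inv_mul_cancel]; rfl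
  have h1 : (y : Matrix (Fin d ⊕ Fin d) (Fin d ⊕ Fin d) F) * T * ((y⁻¹ : GL (Fin d ⊕ Fin d) F) : Matrix (Fin d ⊕ Fin d) (Fin d ⊕ Fin d) F) = ε • T := by
    rw [hy, Matrix.smul_mul, Matrix.mul_assoc, hyi, Matrix.mul_one]
  have h3 : ((y⁻¹ : GL (Fin d ⊕ Fin d) F) : Matrix (Fin d ⊕ Fin d) (Fin d ⊕ Fin d) F) * T * y = ε⁻¹ • T := by
    have h4 : T * y = ε⁻¹ • ((y : Matrix (Fin d ⊕ Fin d) (Fin d ⊕ Fin d) F) * T) := by
      rw [hy, smul_smul, inv_mul_cancel₀ hε, one_smul]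
    rw [Matrix.mul_assoc, h4, Matrix.mul_smul, ← Matrix.mul_assoc, hiy, Matrix.one_mul]
  intro k
  constructor
  · intro hk
    obtain ⟨α, β, rfl⟩ := hT.span k hk
    have h4 : (y : Matrix (Fin d ⊕ Fin d) (Fin d ⊕ Fin d) F) * (α • 1 + β • T) * ((y⁻¹ : GL (Fin d ⊕ Fin d) F) : Matrix (Fin d ⊕ Fin d) (Fin d ⊕ Fin d) F) = α • 1 + (β * ε) • T := by
      rw [Matrix.mul_add, Matrix.add_mul, Matrix.mul_smul, Matrix.mul_smul, Matrix.smul_mul, Matrix.smul_mul, Matrix.mul_one, hyi, h1, smul_smul]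
    rw [h4]
    exact K.add_mem (scalar_mem α) (K.smul_mem hT.mem _)
  · intro hk
    obtain ⟨α, β, h⟩ := hT.span _ hk
    have h4 : k = α • 1 + (β * ε⁻¹) • T := by
      have h5 : k = ((y⁻¹ : GL (Fin d ⊕ Fin d) F) : Matrix (Fin d ⊕ Fin d) (Fin d ⊕ Fin d) F) * ((y : Matrix (Fin d ⊕ Fin d) (Fin d ⊕ Fin d) F) * k * ((y⁻¹ : GL (Fin d ⊕ Fin d) F) : Matrix (Fin d ⊕ Fin d) (Fin d ⊕ Fin d) F)) * y := by
        simp only [Matrix.mul_assoc, hiy, Matrix.mul_one]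
        rw [← Matrix.mul_assoc, hiy, Matrix.one_mul]
      rw [h5, h, Matrix.mul_add, Matrix.add_mul, Matrix.mul_smul, Matrix.mul_smul, Matrix.smul_mul, Matrix.smul_mul, Matrix.mul_one, hiy, h3, smul_smul]
    rw [h4]
    exact K.add_mem (scalar_mem α) (K.smul_mem hT.mem _)

theorem coeff_zero {s : F} {T : Matrix (Fin d ⊕ Fin d) (Fin d ⊕ Fin d) F} (hT : KStd K s T) {a b : F}
    (h : a • (1 : Matrix (Fin d ⊕ Fin d) (Fin d ⊕ Fin d) F) + b • T = 0) : a = 0 ∧ b = 0 := by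
  have hb : b = 0 := by
    by_contra hb
    apply hT.ns (-(b⁻¹ * a))
    have h1 : T = b⁻¹ • (b • T) := by rw [smul_smul, inv_mul_cancel₀ hb, one_smul]
    rw [h1, eq_neg_of_add_eq_zero_right h, smul_neg, neg_smul, smul_smul]
  subst hb
  rw [zero_smul, add_zero] at h
  refine ⟨?_, rfl⟩
  by_contra ha
  have h1 : (1 : Matrix (Fin d ⊕ Fin d) (Fin d ⊕ Fin d) F) = 0 := by
    have h3 : (1 : Matrix (Fin d ⊕ Fin d) (Fin d ⊕ Fin d) F) = a⁻¹ • (a • 1) := by rw [smul_smul, inv_mul_cancel₀ ha, one_smul]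
    rw [h3, h, smul_zero]
  apply hT.ns 0
  rw [zero_smul, ← Matrix.mul_one T, h1, Matrix.mul_zero]

/-- A normalizing element with an odd power scalar centralizes `T`. -/
theorem comm_of_normalizer {s : F} {T : Matrix (Fin d ⊕ Fin d) (Fin d ⊕ Fin d) F} (hT : KStd K s T) (hs : ¬ IsSquare s) (h2 : (2 : F) ≠ 0)
    (y : GL (Fin d ⊕ Fin d) F) (hy : y ∈ subalgebraNormalizer K) {r : ℕ} (hr : Odd r) {z : F}
    (hz : ((y ^ r : GL (Fin d ⊕ Fin d) F) : Matrix (Fin d ⊕ Fin d) (Fin d ⊕ Fin d) F) = z • (1 : Matrix (Fin d ⊕ Fin d) (Fin d ⊕ Fin d) F)) :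
    (y : Matrix (Fin d ⊕ Fin d) (Fin d ⊕ Fin d) F) * T = T * y := by
  have hs0 : s ≠ 0 := by
    rintro rfl
    exact hs ⟨0, by ring⟩
  have hyi : (y : Matrix (Fin d ⊕ Fin d) (Fin d ⊕ Fin d) F) * ((y⁻¹ : GL (Fin d ⊕ Fin d) F) : Matrix (Fin d ⊕ Fin d) (Fin d ⊕ Fin d) F) = 1 := by
    rw [← Units.val_mul, mul_inv_cancel]; rfl
  have hiy : ((y⁻¹ : GL (Fin d ⊕ Fin d) F) : Matrix (Fin d ⊕ Fin d) (Fin d ⊕ Fin d) F) * (y : Matrix (Fin d ⊕ Fin d) (Fin d ⊕ Fin d) F) = 1 := by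
    rw [← Units.val_mul, inv_mul_cancel]; rfl
  have hmem := (hy T).mp hT.mem
  obtain ⟨α, β, hab⟩ := hT.span _ hmem
  set X := (y : Matrix (Fin d ⊕ Fin d) (Fin d ⊕ Fin d) F) * T * ((y⁻¹ : GL (Fin d ⊕ Fin d) F) : Matrix (Fin d ⊕ Fin d) (Fin d ⊕ Fin d) F) with hX
  have hXX : X * X = s • 1 := by
    have h1 : X * X = (y : Matrix (Fin d ⊕ Fin d) (Fin d ⊕ Fin d) F) * (T * (((y⁻¹ : GL (Fin d ⊕ Fin d) F) : Matrix (Fin d ⊕ Fin d) (Fin d ⊕ Fin d) F) * y) * T) * ((y⁻¹ : GL (Fin d ⊕ Fin d) F) : Matrix (Fin d ⊕ Fin d) (Fin d ⊕ Fin d) F) := by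
      simp only [hX, Matrix.mul_assoc]
    rw [h1, hiy, Matrix.mul_one, hT.sq, Matrix.mul_smul, Matrix.smul_mul, Matrix.mul_one, hyi]
  have h4 : (α • (1 : Matrix (Fin d ⊕ Fin d) (Fin d ⊕ Fin d) F) + β • T) * (α • 1 + β • T) = (α * α) • 1 + (α * β) • T + (β * α) • T + (β * β) • (T * T) := by
    simp only [Matrix.mul_add, Matrix.add_mul, Matrix.mul_smul, Matrix.smul_mul, Matrix.mul_one, Matrix.one_mul, smul_smul, smul_add]
    abel
  rw [hT.sq, smul_smul] at h4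
  have h3 : (α * α + β * β * s - s) • (1 : Matrix (Fin d ⊕ Fin d) (Fin d ⊕ Fin d) F) + (2 * α * β) • T = 0 := by
    rw [← hab, hXX] at h4
    ext a b
    have h5 := congrFun (congrFun h4 a) b
    simp only [Matrix.smul_apply, Matrix.add_apply, smul_eq_mul, Matrix.zero_apply] at h5 ⊢
    linear_combination -h5
  obtain ⟨h5, h6⟩ := coeff_zero hT h3
  have hαβ : α = 0 := by
    by_contra hα
    have hβ : β = 0 := by
      have h7 : (2 * α) * β = 0 := h6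
      exact (mul_eq_zero.mp h7).resolve_left (mul_ne_zero h2 hα)
    subst hβ
    apply hs
    exact ⟨α, by linear_combination -h5⟩
  subst hαβ
  have hβ2 : β * β = 1 := by
    have h7 : (β * β - 1) * s = 0 := by linear_combination h5
    have h8 := (mul_eq_zero.mp h7).resolve_right hs0
    exact sub_eq_zero.mp h8
  rw [zero_smul, zero_add] at hab
  have hyT : (y : Matrix (Fin d ⊕ Fin d) (Fin d ⊕ Fin d) F) * T = β • (T * y) := by
    have h7 : X * y = (y : Matrix (Fin d ⊕ Fin d) (Fin d ⊕ Fin d) F) * T := by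
      rw [hX, Matrix.mul_assoc, hiy, Matrix.mul_one]
    rw [← h7, hab, Matrix.smul_mul]
  have hpow : ∀ n : ℕ, ((y ^ n : GL (Fin d ⊕ Fin d) F) : Matrix (Fin d ⊕ Fin d) (Fin d ⊕ Fin d) F) * T = (β ^ n) • (T * ((y ^ n : GL (Fin d ⊕ Fin d) F) : Matrix (Fin d ⊕ Fin d) (Fin d ⊕ Fin d) F)) := by
    intro n
    induction n with
    | zero => simp
    | succ n ih =>
      rw [pow_succ, Units.val_mul, Matrix.mul_assoc, hyT, Matrix.mul_smul, ← Matrix.mul_assoc, ih, Matrix.smul_mul, smul_smul, Matrix.mul_assoc, pow_succ]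
      congr 1
      ring
  have hT0 : T ≠ 0 := fun h => hT.ns 0 (by rw [h, zero_smul])
  have hz0 : z ≠ 0 := by
    rintro rfl
    apply hT0
    have h7 : ((y ^ r : GL (Fin d ⊕ Fin d) F) : Matrix (Fin d ⊕ Fin d) (Fin d ⊕ Fin d) F) * (((y ^ r)⁻¹ : GL (Fin d ⊕ Fin d) F) : Matrix (Fin d ⊕ Fin d) (Fin d ⊕ Fin d) F) = 1 := by
      rw [← Units.val_mul, mul_inv_cancel]; rfl
    rw [hz, zero_smul, Matrix.zero_mul] at h7
    rw [← Matrix.mul_one T, ← h7, Matrix.mul_zero]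
  have h7 := hpow r
  rw [hz, Matrix.smul_mul, Matrix.one_mul, Matrix.mul_smul, Matrix.mul_one, smul_smul] at h7
  have h8 : ((0 : F)) • (1 : Matrix (Fin d ⊕ Fin d) (Fin d ⊕ Fin d) F) + (z - β ^ r * z) • T = 0 := by
    rw [zero_smul, zero_add, sub_smul, h7, sub_self]
  have h9 := (coeff_zero hT h8).2
  have hβr : β ^ r = β := by
    obtain ⟨k, hk⟩ := hr
    rw [hk, pow_succ, pow_mul, pow_two, hβ2, one_pow, one_mul]
  rw [hβr] at h9
  have hβ1 : β = 1 := by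
    have h10 : z * (1 - β) = 0 := by linear_combination h9
    have h11 := (mul_eq_zero.mp h10).resolve_left hz0
    exact (sub_eq_zero.mp h11).symm
  rw [hyT, hβ1, one_smul]

end Cfsg.Agent.Lib.SpGU
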