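import Mathlib
import Cfsg.Agent.Lib.SpGU.KFacts

/-!
# Elements with scalar square are conjugate into the normalizer of `K`
-/

set_option autoImplicit false
set_option linter.unusedSimpArgs false
set_option linter.unusedVariables false
set_option linter.unusedSectionVars false

namespace Cfsg.Agent.Lib.SpGU

open Matrix Module Cfsg Cfsg.Geo
open Cfsg.Agent.Lib.SympForm Cfsg.Agent.Lib.FieldSub Cfsg.Agent.Lib.SpInvol Cfsg.Agent.Lib.MatConj

variable {F : Type*} [Field F] {d : ℕ}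
variable {K : Subalgebra F (Matrix (Fin d ⊕ Fin d) (Fin d ⊕ Fin d) F)}

theorem mat_eq_of_mulVec {A B : Matrix (Fin d ⊕ Fin d) (Fin d ⊕ Fin d) F} (h : ∀ u, A *ᵥ u = B *ᵥ u) : A = B := by
  apply Matrix.toLin'.injective
  apply LinearMap.ext
  intro v
  simpa [Matrix.toLin'_apply] using h v

theorem gl_inv_mulVec (g : GL (Fin d ⊕ Fin d) F) (u : Fin d ⊕ Fin d → F) :
    ((g⁻¹ : GL (Fin d ⊕ Fin d) F) : Matrix (Fin d ⊕ Fin d) (Fin d ⊕ Fin d) F) *ᵥ ((g : Matrix (Fin d ⊕ Fin d) (Fin d ⊕ Fin d) F) *ᵥ u) = u := by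
  rw [Matrix.mulVec_mulVec, ← Units.val_mul, inv_mul_cancel]
  exact Matrix.one_mulVec u

theorem gl_mulVec_inv (g : GL (Fin d ⊕ Fin d) F) (u : Fin d ⊕ Fin d → F) :
    (g : Matrix (Fin d ⊕ Fin d) (Fin d ⊕ Fin d) F) *ᵥ (((g⁻¹ : GL (Fin d ⊕ Fin d) F) : Matrix (Fin d ⊕ Fin d) (Fin d ⊕ Fin d) F) *ᵥ u) = u := by
  rw [Matrix.mulVec_mulVec, ← Units.val_mul, mul_inv_cancel]
  exact Matrix.one_mulVec u

theorem exists_std_conj [Fintype F] (h2 : (2 : F) ≠ 0) {s : F} (hs0 : s ≠ 0) {T : Matrix (Fin d ⊕ Fin d) (Fin d ⊕ Fin d) F} (hT : KStd K s T) :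
    ∃ g : GL (Fin d ⊕ Fin d) F, g ∈ spGL d F ∧ ∀ u, T *ᵥ ((g : Matrix (Fin d ⊕ Fin d) (Fin d ⊕ Fin d) F) *ᵥ u) = (g : Matrix (Fin d ⊕ Fin d) (Fin d ⊕ Fin d) F) *ᵥ (Sst s u) := by
  obtain ⟨E, hE1, hE2⟩ := exists_T_std (V := Fin d ⊕ Fin d → F) (m := d) h2 s hs0 (Cfsg.Agent.Lib.SympWitt.sympB d F) (fun v => sympForm_self v)
    (fun v hv => Cfsg.Agent.Lib.SympWitt.eq_zero_of_forall_sympForm hv) T.mulVecLin
    (fun v => by
      simp only [Matrix.mulVecLin_apply]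
      rw [Matrix.mulVec_mulVec, hT.sq, Matrix.smul_mulVec, Matrix.one_mulVec])
    (fun u v => hT.adj u v)
    (by simp [two_mul])
  refine ⟨glOfEquiv E, glOfEquiv_mem E hE1, fun u => ?_⟩
  rw [glOfEquiv_mulVec, glOfEquiv_mulVec]
  exact hE2 u

/-- The final conjugation. -/
theorem conj_lemma {s : F} {T : Matrix (Fin d ⊕ Fin d) (Fin d ⊕ Fin d) F} (hT : KStd K s T) {g₀ : GL (Fin d ⊕ Fin d) F} (hg₀ : g₀ ∈ spGL d F)
    (hg₀T : ∀ u, T *ᵥ ((g₀ : Matrix (Fin d ⊕ Fin d) (Fin d ⊕ Fin d) F) *ᵥ u) = (g₀ : Matrix (Fin d ⊕ Fin d) (Fin d ⊕ Fin d) F) *ᵥ (Sst s u))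
    {x y h : GL (Fin d ⊕ Fin d) F} (hh : h ∈ spGL d F) (hc : h⁻¹ * x * h = y) {ε : F} (hε : ε ≠ 0)
    (hy : ∀ u, (y : Matrix (Fin d ⊕ Fin d) (Fin d ⊕ Fin d) F) *ᵥ (Sst s u) = ε • Sst s ((y : Matrix (Fin d ⊕ Fin d) (Fin d ⊕ Fin d) F) *ᵥ u)) :
    ∃ g ∈ spGL d F, g⁻¹ * x * g ∈ subalgebraNormalizer K := by
  refine ⟨h * g₀⁻¹, (spGL d F).mul_mem hh ((spGL d F).inv_mem hg₀), ?_⟩
  have h1 : (h * g₀⁻¹)⁻¹ * x * (h * g₀⁻¹) = g₀ * y * g₀⁻¹ := by
    rw [← hc]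
    group
  rw [h1]
  apply mem_normalizer_of_conj hT _ ε hε
  apply mat_eq_of_mulVec
  intro v
  obtain ⟨u, rfl⟩ : ∃ u, v = (g₀ : Matrix (Fin d ⊕ Fin d) (Fin d ⊕ Fin d) F) *ᵥ u := ⟨((g₀⁻¹ : GL (Fin d ⊕ Fin d) F) : Matrix (Fin d ⊕ Fin d) (Fin d ⊕ Fin d) F) *ᵥ v, (gl_mulVec_inv g₀ v).symm⟩
  have h3 : ∀ w, ((g₀ * y * g₀⁻¹ : GL (Fin d ⊕ Fin d) F) : Matrix (Fin d ⊕ Fin d) (Fin d ⊕ Fin d) F) *ᵥ ((g₀ : Matrix (Fin d ⊕ Fin d) (Fin d ⊕ Fin d) F) *ᵥ w) =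
      (g₀ : Matrix (Fin d ⊕ Fin d) (Fin d ⊕ Fin d) F) *ᵥ ((y : Matrix (Fin d ⊕ Fin d) (Fin d ⊕ Fin d) F) *ᵥ w) := by
    intro w
    rw [Units.val_mul, Units.val_mul, ← Matrix.mulVec_mulVec, ← Matrix.mulVec_mulVec, gl_inv_mulVec]
  rw [Matrix.smul_mulVec, ← Matrix.mulVec_mulVec, ← Matrix.mulVec_mulVec, hg₀T, h3, hy, Matrix.mulVec_smul, h3, hg₀T]

section inv

/-- The diagonal involution with `t` negative blocks. -/
def invDiag (F : Type*) [Field F] (d t : ℕ) : Fin d ⊕ Fin d → F :=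
  Sum.elim (fun i => if (i : ℕ) < t then -1 else 1) (fun i => if (i : ℕ) < t then -1 else 1)

theorem invDiag_sq (t : ℕ) (a : Fin d ⊕ Fin d) : invDiag F d t a * invDiag F d t a = 1 := by
  rcases a with i | i <;> simp only [invDiag, Sum.elim_inl, Sum.elim_inr] <;> split_ifs <;> simp

theorem invDiag_mul_self (t : ℕ) : (Matrix.diagonal (invDiag F d t)) * (Matrix.diagonal (invDiag F d t)) = 1 := by
  rw [Matrix.diagonal_mul_diagonal, ← Matrix.diagonal_one]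
  congr 1
  funext a
  exact invDiag_sq t a

/-- The model involution. -/
def invGL (F : Type*) [Field F] (d t : ℕ) : GL (Fin d ⊕ Fin d) F :=
  ⟨Matrix.diagonal (invDiag F d t), Matrix.diagonal (invDiag F d t), invDiag_mul_self t, invDiag_mul_self t⟩

theorem invGL_mulVec (t : ℕ) (u : Fin d ⊕ Fin d → F) (a : Fin d ⊕ Fin d) :
    (((invGL F d t : GL (Fin d ⊕ Fin d) F) : Matrix (Fin d ⊕ Fin d) (Fin d ⊕ Fin d) F) *ᵥ u) a = invDiag F d t a * u a := by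
  exact Matrix.mulVec_diagonal _ _ _

theorem invGL_mem (t : ℕ) : invGL F d t ∈ spGL d F := by
  rw [spGL_iff]
  intro u v
  rw [sympForm_apply, sympForm_apply]
  refine Finset.sum_congr rfl fun i _ => ?_
  simp only [invGL_mulVec]
  have h1 := invDiag_sq (F := F) (d := d) t (Sum.inl i)
  have h3 : invDiag F d t (Sum.inr i) = invDiag F d t (Sum.inl i) := rfl
  rw [h3]
  linear_combination (u (Sum.inr i) * v (Sum.inl i) - u (Sum.inl i) * v (Sum.inr i)) * h1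

theorem invGL_comm (s : F) (t : ℕ) (u : Fin d ⊕ Fin d → F) :
    ((invGL F d t : GL (Fin d ⊕ Fin d) F) : Matrix (Fin d ⊕ Fin d) (Fin d ⊕ Fin d) F) *ᵥ (Sst s u) = (1 : F) • Sst s (((invGL F d t : GL (Fin d ⊕ Fin d) F) : Matrix (Fin d ⊕ Fin d) (Fin d ⊕ Fin d) F) *ᵥ u) := by
  rw [one_smul]
  funext a
  rw [invGL_mulVec]
  rcases a with i | i
  · rw [Sst_inl, Sst_inl, invGL_mulVec]
    rfl
  · rw [Sst_inr, Sst_inr, invGL_mulVec]
    have h3 : invDiag F d t (Sum.inr i) = invDiag F d t (Sum.inl i) := rfl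
    rw [h3]
    ring

theorem invGL_rank [DecidableEq F] (h2 : (2 : F) ≠ 0) {t : ℕ} (ht : t ≤ d) :
    (((invGL F d t : GL (Fin d ⊕ Fin d) F) : Matrix (Fin d ⊕ Fin d) (Fin d ⊕ Fin d) F) - 1).rank = 2 * t := by
  classical
  have h1 : ((invGL F d t : GL (Fin d ⊕ Fin d) F) : Matrix (Fin d ⊕ Fin d) (Fin d ⊕ Fin d) F) - 1 = Matrix.diagonal (fun a => invDiag F d t a - 1) := by
    ext a b
    show (Matrix.diagonal (invDiag F d t)) a b - (1 : Matrix (Fin d ⊕ Fin d) (Fin d ⊕ Fin d) F) a b = _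
    rw [Matrix.one_apply, Matrix.diagonal_apply, Matrix.diagonal_apply]
    split_ifs with hab
    · rfl
    · simp
  rw [h1, Matrix.rank_diagonal, Fintype.card_congr (Equiv.subtypeSum), Fintype.card_sum]
  have h3 : ∀ i : Fin d, (if (i : ℕ) < t then (-1 : F) else 1) - 1 ≠ 0 ↔ (i : ℕ) < t := by
    intro i
    split_ifs with hi
    · simp only [hi, iff_true]
      intro h
      apply h2
      linear_combination -h
    · simp [hi]
  have h4 : Fintype.card {i : Fin d // invDiag F d t (Sum.inl i) - 1 ≠ 0} = t := by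
    have h6 : ∀ i : Fin d, invDiag F d t (Sum.inl i) - 1 ≠ 0 ↔ (i : ℕ) < t := h3
    rw [Fintype.card_congr (Equiv.subtypeEquivRight h6)]
    exact Fintype.card_fin_lt_of_le ht
  have h5 : Fintype.card {i : Fin d // invDiag F d t (Sum.inr i) - 1 ≠ 0} = t := by
    have h6 : ∀ i : Fin d, invDiag F d t (Sum.inr i) - 1 ≠ 0 ↔ (i : ℕ) < t := h3
    rw [Fintype.card_congr (Equiv.subtypeEquivRight h6)]
    exact Fintype.card_fin_lt_of_le ht
  rw [h4, h5]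
  omega

end inv

section neg

/-- The model element of square `-1`. -/
def JLin (a b s : F) (d : ℕ) : (Fin d ⊕ Fin d → F) →ₗ[F] (Fin d ⊕ Fin d → F) where
  toFun u := Sum.elim (fun i => a * u (Sum.inl i) + b * u (Sum.inr i)) (fun i => -(b * s) * u (Sum.inl i) - a * u (Sum.inr i))
  map_add' u v := by
    funext c
    rcases c with i | i <;> simp <;> ring
  map_smul' c u := by
    funext e
    rcases e with i | i <;> simp <;> ring

@[simp] theorem JLin_inl (a b s : F) (u : Fin d ⊕ Fin d → F) (i : Fin d) : JLin a b s d u (Sum.inl i) = a * u (Sum.inl i) + b * u (Sum.inr i) := rfl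
@[simp] theorem JLin_inr (a b s : F) (u : Fin d ⊕ Fin d → F) (i : Fin d) : JLin a b s d u (Sum.inr i) = -(b * s) * u (Sum.inl i) - a * u (Sum.inr i) := rfl

theorem JLin_sq {a b s : F} (hab : a ^ 2 - s * b ^ 2 = -1) (u : Fin d ⊕ Fin d → F) : JLin a b s d (JLin a b s d u) = - u := by
  funext c
  rcases c with i | i
  · simp only [JLin_inl, JLin_inr, Pi.neg_apply]
    linear_combination u (Sum.inl i) * hab
  · simp only [JLin_inl, JLin_inr, Pi.neg_apply]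
    linear_combination u (Sum.inr i) * hab

/-- As a linear equivalence. -/
def JEquiv {a b s : F} (hab : a ^ 2 - s * b ^ 2 = -1) (d : ℕ) : (Fin d ⊕ Fin d → F) ≃ₗ[F] (Fin d ⊕ Fin d → F) :=
  LinearEquiv.ofLinearMap (JLin a b s d) (- JLin a b s d)
    (by
      apply LinearMap.ext
      intro u
      simp [JLin_sq hab])
    (by
      apply LinearMap.ext
      intro u
      simp [JLin_sq hab])

theorem JEquiv_apply {a b s : F} (hab : a ^ 2 - s * b ^ 2 = -1) (u : Fin d ⊕ Fin d → F) : JEquiv hab d u = JLin a b s d u := rfl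

theorem JLin_form {a b s : F} (hab : a ^ 2 - s * b ^ 2 = -1) (u v : Fin d ⊕ Fin d → F) :
    sympForm d F (JLin a b s d u) (JLin a b s d v) = sympForm d F u v := by
  rw [sympForm_apply, sympForm_apply]
  refine Finset.sum_congr rfl fun i _ => ?_
  simp only [JLin_inl, JLin_inr]
  linear_combination (u (Sum.inl i) * v (Sum.inr i) - u (Sum.inr i) * v (Sum.inl i)) * hab

theorem JLin_anti (a b s : F) (u : Fin d ⊕ Fin d → F) :
    JLin a b s d (Sst s u) = (-1 : F) • Sst s (JLin a b s d u) := by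
  funext c
  rcases c with i | i
  · simp only [JLin_inl, JLin_inr, Sst_inl, Sst_inr, Pi.smul_apply, smul_eq_mul]
    ring
  · simp only [JLin_inl, JLin_inr, Sst_inl, Sst_inr, Pi.smul_apply, smul_eq_mul]
    ring

end neg

/-- Every element of `Sp` with scalar square is conjugate into the normalizer. -/
theorem backward_two [Fintype F] (h2 : (2 : F) ≠ 0) (hd : 1 ≤ d) {s : F} (hs0 : s ≠ 0) {T : Matrix (Fin d ⊕ Fin d) (Fin d ⊕ Fin d) F} (hT : KStd K s T)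
    (x : GL (Fin d ⊕ Fin d) F) (hx : x ∈ spGL d F) (z : F)
    (hz : ((x ^ 2 : GL (Fin d ⊕ Fin d) F) : Matrix (Fin d ⊕ Fin d) (Fin d ⊕ Fin d) F) = z • (1 : Matrix (Fin d ⊕ Fin d) (Fin d ⊕ Fin d) F)) :
    ∃ g ∈ spGL d F, g⁻¹ * x * g ∈ subalgebraNormalizer K := by
  classical
  obtain ⟨g₀, hg₀, hg₀T⟩ := exists_std_conj h2 hs0 hT
  have hxx : (x : Matrix (Fin d ⊕ Fin d) (Fin d ⊕ Fin d) F) * x = z • 1 := by
    rw [← hz, pow_two, Units.val_mul]
  rcases sq_eq_one_or hd x hx z hxx with rfl | rfl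
  · rw [one_smul] at hxx
    obtain ⟨t, ht⟩ := rank_even h2 x hx hxx
    have htd : t ≤ d := by
      have h1 := Matrix.rank_le_card_width ((x : Matrix (Fin d ⊕ Fin d) (Fin d ⊕ Fin d) F) - 1)
      rw [ht] at h1
      simp only [Fintype.card_sum, Fintype.card_fin] at h1
      omega
    obtain ⟨h, hh, hc⟩ := sp_invol_conj h2 x (invGL F d t) hx (invGL_mem t) hxx (invDiag_mul_self t) (by rw [ht, invGL_rank h2 htd])
    exact conj_lemma hT hg₀ hg₀T hh hc one_ne_zero (invGL_comm s t)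
  · obtain ⟨a, b, hab⟩ := Cfsg.Agent.Lib.SqScalar.exists_norm_eq s (-1 : F) hs0
    let y : GL (Fin d ⊕ Fin d) F := glOfEquiv (JEquiv hab d)
    have hyv : ∀ u, (y : Matrix (Fin d ⊕ Fin d) (Fin d ⊕ Fin d) F) *ᵥ u = JLin a b s d u := fun u => by
      rw [glOfEquiv_mulVec, JEquiv_apply]
    have hy : y ∈ spGL d F := glOfEquiv_mem _ (fun u v => JLin_form hab u v)
    have hy2 : (y : Matrix (Fin d ⊕ Fin d) (Fin d ⊕ Fin d) F) * y = (-1 : F) • 1 := by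
      apply mat_eq_of_mulVec
      intro u
      rw [← Matrix.mulVec_mulVec, hyv, hyv, JLin_sq hab, Matrix.smul_mulVec, Matrix.one_mulVec, neg_smul, one_smul]
    obtain ⟨h, hh, hc⟩ := sp_J_conj h2 x y hx hy hxx hy2
    refine conj_lemma hT hg₀ hg₀T hh hc (ε := -1) (neg_ne_zero.mpr one_ne_zero) ?_
    intro u
    rw [hyv, hyv, JLin_anti]

end Cfsg.Agent.Lib.SpGU
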