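import Mathlib
import Cfsg.Agent.Lib.SpGU.KFacts
import Cfsg.Agent.Lib.SpGU.KOne
import Cfsg.Agent.Lib.SpGU.Inv
import Cfsg.Agent.S5961

/-!
# Elements of odd prime order with one block are not conjugate into the normalizer of `K`, for `i ≢ 2 (4)`
-/

set_option autoImplicit false
set_option linter.unusedSimpArgs false
set_option linter.unusedVariables false
set_option linter.unusedSectionVars false

namespace Cfsg.Agent.Lib.SpGU

open Matrix Module Cfsg Cfsg.Geo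
open Cfsg.Agent.Lib.SympForm Cfsg.Agent.Lib.FieldSub Cfsg.Agent.Lib.SpInvol Cfsg.Agent.Lib.MatConj Cfsg.Agent.Lib.IsomBlock

variable {F : Type*} [Field F] {d : ℕ}
variable {K : Subalgebra F (Matrix (Fin d ⊕ Fin d) (Fin d ⊕ Fin d) F)}

theorem toLin_pow (A : Matrix (Fin d ⊕ Fin d) (Fin d ⊕ Fin d) F) (n : ℕ) : (Matrix.toLin' A) ^ n = Matrix.toLin' (A ^ n) := by
  have h2 : ∀ B : Matrix (Fin d ⊕ Fin d) (Fin d ⊕ Fin d) F, Matrix.toLin' B = Matrix.toLinAlgEquiv' B := fun _ => rfl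
  rw [h2, h2, map_pow]

/-- The adjoint relation with the arguments exchanged. -/
theorem hanti_aux {V : Type*} [AddCommGroup V] [Module F V] {B : V →ₗ[F] V →ₗ[F] F} {τ : V →ₗ[F] V} (f v : V) (hτB : ∀ u v, B (τ u) v = - B u (τ v)) :
    B f (τ v) = - B (τ f) v := by
  rw [hτB, neg_neg]

theorem not_conj_of_block [Fintype F] {r q : ℕ} [hrf : Fact r.Prime] (hq : Fintype.card F = q) (hr2 : r ≠ 2) (hrF : (r : F) ≠ 0) (h2 : (2 : F) ≠ 0)
    {s : F} (hs : ¬ IsSquare s) {T : Matrix (Fin d ⊕ Fin d) (Fin d ⊕ Fin d) F} (hT : KStd K s T)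
    (y : GL (Fin d ⊕ Fin d) F) (hy : y ∈ spGL d F) (hyr : y ^ r = 1) (hyN : y ∈ subalgebraNormalizer K)
    (hfix : finrank F (fixS (Matrix.toLin' (y : Matrix (Fin d ⊕ Fin d) (Fin d ⊕ Fin d) F)) ⊤) + blockDim r q = 2 * d) :
    orderOf (q : ZMod r) % 4 = 2 := by
  classical
  have hr : r.Prime := hrf.out
  have hr0 : r ≠ 0 := hr.ne_zero
  have hrodd : Odd r := hr.odd_of_ne_two hr2
  have hcomm : (y : Matrix (Fin d ⊕ Fin d) (Fin d ⊕ Fin d) F) * T = T * y :=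
    comm_of_normalizer hT hs h2 y hyN hrodd (z := 1) (by rw [hyr, one_smul]; rfl)
  let B := Cfsg.Agent.Lib.SympWitt.sympB d F
  have hBa : ∀ u v, B u v = sympForm d F u v := fun _ _ => rfl
  have halt : ∀ v, B v v = 0 := fun v => sympForm_self v
  have hB : GoodForm B := Or.inl halt
  let Y := Matrix.toLin' (y : Matrix (Fin d ⊕ Fin d) (Fin d ⊕ Fin d) F)
  have hYa : ∀ v, Y v = (y : Matrix (Fin d ⊕ Fin d) (Fin d ⊕ Fin d) F) *ᵥ v := fun v => Matrix.toLin'_apply _ v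
  let τ := Matrix.toLin' T
  have hτa : ∀ v, τ v = T *ᵥ v := fun v => Matrix.toLin'_apply _ v
  have hiso : ∀ u v, B (Y u) (Y v) = B u v := by
    intro u v
    rw [hYa, hYa]
    exact hy u v
  have hYr : Y ^ r = 1 := by
    show (Matrix.toLin' (y : Matrix (Fin d ⊕ Fin d) (Fin d ⊕ Fin d) F)) ^ r = 1
    rw [toLin_pow, ← Units.val_pow_eq_pow_val, hyr, Units.val_one, Matrix.toLin'_one]
    rfl
  have hτ2 : ∀ v, τ (τ v) = s • v := by
    intro v
    rw [hτa, hτa, Matrix.mulVec_mulVec, hT.sq, Matrix.smul_mulVec, Matrix.one_mulVec]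
  have hτB : ∀ u v, B (τ u) v = - B u (τ v) := by
    intro u v
    rw [hτa, hτa]
    exact hT.adj u v
  have hτY : ∀ v, τ (Y v) = Y (τ v) := by
    intro v
    rw [hτa, hYa, hYa, hτa, Matrix.mulVec_mulVec, Matrix.mulVec_mulVec, hcomm]
  have hU : NDOn B ⊤ := fun v _ hv => Cfsg.Agent.S5983.symp_nd v fun w => hv w trivial
  have hinvTop : InvOn Y ⊤ := fun _ _ => trivial
  have hndfix : NDOn B (fixS Y ⊤) := nd_fixS hB hiso hr0 hrF hYr hU hinvTop
  set W : Submodule F (Fin d ⊕ Fin d → F) := ⊤ ⊓ perp B (fixS Y ⊤) with hW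
  have hWfin : finrank F W = blockDim r q := by
    have h1 : finrank F (fixS Y ⊤) + finrank F W = finrank F (⊤ : Submodule F (Fin d ⊕ Fin d → F)) := finrank_rel hB (fixS_le (T := Y) ⊤) hndfix
    rw [finrank_top, Cfsg.Agent.S5983.finrank_V] at h1
    have h3 : finrank F (fixS Y ⊤) + blockDim r q = 2 * d := hfix
    omega
  have hWnd : NDOn B W := nd_rel hB (fixS_le (T := Y) ⊤) hndfix hU
  have hWY : InvOn Y W := inv_inf hinvTop (inv_perp hiso hr0 hYr (inv_fixS ⊤))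
  have hWτ : ∀ v ∈ W, τ v ∈ W := by
    intro v hv
    refine ⟨trivial, fun f hf => ?_⟩
    have hf' := mem_fixS.mp hf
    rw [hanti_aux f v hτB, hv.2 (τ f) (mem_fixS.mpr ⟨trivial, by rw [← hτY, hf'.2]⟩), neg_zero]
  let B' : W →ₗ[F] W →ₗ[F] F := B.domRestrict₁₂ W W
  let Y' : W →ₗ[F] W := Y.restrict hWY
  let τ' : W →ₗ[F] W := τ.restrict hWτ
  have hY'a : ∀ a : W, ((Y' a : W) : Fin d ⊕ Fin d → F) = Y a := fun a => rfl
  have hτ'a : ∀ a : W, ((τ' a : W) : Fin d ⊕ Fin d → F) = τ a := fun a => rfl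
  have hY'p : ∀ (k : ℕ) (u : W), (((Y' ^ k) u : W) : Fin d ⊕ Fin d → F) = (Y ^ k) u := by
    intro k
    induction k with
    | zero => simp
    | succ k ih =>
      intro u
      rw [pow_succ, pow_succ, Module.End.mul_apply, Module.End.mul_apply, ih, hY'a]
  exact Cfsg.Agent.Lib.SpGU.K1 (V := W) (B := B') (T := Y') (τ := τ') hq hr2 hrF h2 (fun v => halt v.1)
    (fun v hv => Subtype.ext (hWnd v.1 v.2 fun w hw => hv ⟨w, hw⟩))
    (fun a b => hiso a b)
    (by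
      apply LinearMap.ext
      intro u
      apply Subtype.ext
      rw [hY'p, hYr]
      rfl)
    (fun u hu => Subtype.ext (by
      have h1 : Y u = u := congrArg Subtype.val hu
      exact hndfix u.1 (mem_fixS.mpr ⟨trivial, h1⟩) (fun w hw => hB.refl (u.2.2 w hw))))
    hWfin hs (fun v => Subtype.ext (by
      show τ (τ v) = s • (v : Fin d ⊕ Fin d → F)
      exact hτ2 _)) (fun a b => hτB a b) (fun v => Subtype.ext (hτY v))

/-- An element of `GL` from one of the symplectic group. -/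
def spToGL (A : symplecticGroup (Fin d) F) : GL (Fin d ⊕ Fin d) F :=
  ⟨A.1, (A⁻¹ : symplecticGroup (Fin d) F).1, congrArg Subtype.val (mul_inv_cancel A), congrArg Subtype.val (inv_mul_cancel A)⟩

theorem spToGL_mem (A : symplecticGroup (Fin d) F) : spToGL A ∈ spGL d F := fun u v => (mem_symplecticGroup_iff_preserves _).1 A.2 u v

theorem fix_conj_finrank (x g : GL (Fin d ⊕ Fin d) F) :
    finrank F (fixS (Matrix.toLin' ((g⁻¹ * x * g : GL (Fin d ⊕ Fin d) F) : Matrix (Fin d ⊕ Fin d) (Fin d ⊕ Fin d) F)) ⊤) =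
      finrank F (fixS (Matrix.toLin' (x : Matrix (Fin d ⊕ Fin d) (Fin d ⊕ Fin d) F)) ⊤) := by
  let G := Matrix.toLin' (g : Matrix (Fin d ⊕ Fin d) (Fin d ⊕ Fin d) F)
  have hGa : ∀ v, G v = (g : Matrix (Fin d ⊕ Fin d) (Fin d ⊕ Fin d) F) *ᵥ v := fun v => Matrix.toLin'_apply _ v
  have hinj : Function.Injective G := by
    intro a b hab
    rw [hGa, hGa] at hab
    have := congrArg (fun w => ((g⁻¹ : GL (Fin d ⊕ Fin d) F) : Matrix (Fin d ⊕ Fin d) (Fin d ⊕ Fin d) F) *ᵥ w) hab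
    simpa only [gl_inv_mulVec] using this
  have hmap : (fixS (Matrix.toLin' ((g⁻¹ * x * g : GL (Fin d ⊕ Fin d) F) : Matrix (Fin d ⊕ Fin d) (Fin d ⊕ Fin d) F)) ⊤).map G =
      fixS (Matrix.toLin' (x : Matrix (Fin d ⊕ Fin d) (Fin d ⊕ Fin d) F)) ⊤ := by
    ext v
    constructor
    · rintro ⟨u, hu, rfl⟩
      have hu' := (mem_fixS.mp hu).2
      rw [Matrix.toLin'_apply] at hu'
      rw [mem_fixS]
      refine ⟨trivial, ?_⟩
      rw [Matrix.toLin'_apply, hGa]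
      conv_rhs => rw [← hu']
      rw [Units.val_mul, Units.val_mul, ← Matrix.mulVec_mulVec, ← Matrix.mulVec_mulVec, gl_mulVec_inv]
    · intro hv
      have hv' := (mem_fixS.mp hv).2
      rw [Matrix.toLin'_apply] at hv'
      refine ⟨((g⁻¹ : GL (Fin d ⊕ Fin d) F) : Matrix (Fin d ⊕ Fin d) (Fin d ⊕ Fin d) F) *ᵥ v, ?_, ?_⟩
      · rw [SetLike.mem_coe, mem_fixS]
        refine ⟨trivial, ?_⟩
        rw [Matrix.toLin'_apply, Units.val_mul, Units.val_mul, ← Matrix.mulVec_mulVec, ← Matrix.mulVec_mulVec, gl_mulVec_inv, hv']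
      · rw [hGa, gl_mulVec_inv]
  rw [← hmap]
  exact LinearEquiv.finrank_eq (Submodule.equivMapOfInjective G hinj (fixS (Matrix.toLin' ((g⁻¹ * x * g : GL (Fin d ⊕ Fin d) F) : Matrix (Fin d ⊕ Fin d) (Fin d ⊕ Fin d) F)) ⊤))

/-- The bad element. -/
theorem exists_bad [Fintype F] {r q : ℕ} [hrf : Fact r.Prime] (hq : Fintype.card F = q) (hr2 : r ≠ 2) (hrF : (r : F) ≠ 0) (h2 : (2 : F) ≠ 0) (hd : 1 ≤ d)
    {s : F} (hs : ¬ IsSquare s) {T : Matrix (Fin d ⊕ Fin d) (Fin d ⊕ Fin d) F} (hT : KStd K s T) (hle : blockDim r q ≤ 2 * d)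
    (hmod : orderOf (q : ZMod r) % 4 ≠ 2) :
    ∃ x ∈ spGL d F, (∃ z : F, ((x ^ r : GL (Fin d ⊕ Fin d) F) : Matrix (Fin d ⊕ Fin d) (Fin d ⊕ Fin d) F) = z • (1 : Matrix (Fin d ⊕ Fin d) (Fin d ⊕ Fin d) F)) ∧
      (∀ z : F, (x : Matrix (Fin d ⊕ Fin d) (Fin d ⊕ Fin d) F) ≠ z • (1 : Matrix (Fin d ⊕ Fin d) (Fin d ⊕ Fin d) F)) ∧
      ¬ ∃ g ∈ spGL d F, g⁻¹ * x * g ∈ subalgebraNormalizer K := by
  classical
  have hr : r.Prime := hrf.out
  have hrodd : Odd r := hr.odd_of_ne_two hr2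
  have hcpos := blockDim_pos hq hrF
  obtain ⟨c', hc'⟩ := blockDim_even r q
  have hc2 : blockDim r q = 2 * c' := by omega
  obtain ⟨T₀, hT₀1, hT₀2, hT₀3⟩ := Cfsg.Agent.S5961.exists_block_elt (F := F) hq hr2 hrF hc2
  obtain ⟨m, hm⟩ := Nat.exists_eq_add_of_le (show c' ≤ d by omega)
  obtain ⟨x', hxr, hxfix⟩ := Cfsg.Agent.S5961.exists_x_blocks (F := F) (d := d) (s := 1) (c' := c') (m := m) (by omega) T₀ hT₀1 hT₀2 hT₀3
  have hxGr : spToGL x' ^ r = 1 := by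
    apply Units.ext
    rw [Units.val_pow_eq_pow_val, Units.val_one]
    have h1 := congrArg Subtype.val hxr
    rw [SubmonoidClass.coe_pow] at h1
    exact h1
  have hxfix' : finrank F (fixS (Matrix.toLin' ((spToGL x' : GL (Fin d ⊕ Fin d) F) : Matrix (Fin d ⊕ Fin d) (Fin d ⊕ Fin d) F)) ⊤) + blockDim r q = 2 * d := by
    rw [hc2]
    have h1 : finrank F (fixS (Matrix.toLin' ((spToGL x' : GL (Fin d ⊕ Fin d) F) : Matrix (Fin d ⊕ Fin d) (Fin d ⊕ Fin d) F)) ⊤) + 1 * (2 * c') = 2 * d := hxfix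
    omega
  refine ⟨spToGL x', spToGL_mem x', ⟨1, by rw [hxGr, one_smul]; rfl⟩, ?_, ?_⟩
  · intro z hz
    have hz2 : z * z = 1 := Cfsg.Agent.S5961.scalar_sq (by omega) x' z hz
    have hzr : z ^ r = 1 := by
      have h1 := congrArg (fun g : GL (Fin d ⊕ Fin d) F => (g : Matrix (Fin d ⊕ Fin d) (Fin d ⊕ Fin d) F)) hxGr
      simp only [Units.val_pow_eq_pow_val, Units.val_one] at h1
      have hz' : ((spToGL x' : GL (Fin d ⊕ Fin d) F) : Matrix (Fin d ⊕ Fin d) (Fin d ⊕ Fin d) F) = z • 1 := hz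
      rw [hz', _root_.smul_pow, one_pow] at h1
      have h3 := congrFun (congrFun h1 (Sum.inl ⟨0, by omega⟩)) (Sum.inl ⟨0, by omega⟩)
      simpa using h3
    have hz1 : z = 1 := by
      obtain ⟨k, hk⟩ := hrodd
      rw [hk, pow_succ, pow_mul, pow_two, hz2, one_pow, one_mul] at hzr
      exact hzr
    have hxone : ((spToGL x' : GL (Fin d ⊕ Fin d) F) : Matrix (Fin d ⊕ Fin d) (Fin d ⊕ Fin d) F) = 1 := by
      have hz' : ((spToGL x' : GL (Fin d ⊕ Fin d) F) : Matrix (Fin d ⊕ Fin d) (Fin d ⊕ Fin d) F) = z • 1 := hz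
      rw [hz', hz1, one_smul]
    rw [hxone, Matrix.toLin'_one] at hxfix'
    have h5 : fixS (LinearMap.id : (Fin d ⊕ Fin d → F) →ₗ[F] (Fin d ⊕ Fin d → F)) ⊤ = ⊤ := by
      apply le_antisymm le_top
      intro v _
      exact mem_fixS.mpr ⟨trivial, rfl⟩
    rw [h5, finrank_top, Cfsg.Agent.S5983.finrank_V] at hxfix'
    omega
  · rintro ⟨g, hg, hN⟩
    apply hmod
    refine not_conj_of_block hq hr2 hrF h2 hs hT (g⁻¹ * spToGL x' * g) ((spGL d F).mul_mem ((spGL d F).mul_mem ((spGL d F).inv_mem hg) (spToGL_mem x')) hg) ?_ hN ?_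
    · rw [show g⁻¹ * spToGL x' * g = g⁻¹ * spToGL x' * g⁻¹⁻¹ by rw [inv_inv], conj_pow, hxGr]
      simp
    · rw [fix_conj_finrank]
      exact hxfix'

/-- The numerical consequence of the index hypothesis. -/
theorem block_le_of_dvd [Fintype F] {r q : ℕ} [hrf : Fact r.Prime] (hq : Fintype.card F = q) (hrF : (r : F) ≠ 0)
    (h : r ∣ Nat.card (symplecticGroup (Fin d) F)) : blockDim r q ≤ 2 * d := by
  have hr : r.Prime := hrf.out
  have hrq := not_dvd_card hq hrF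
  have h3 := Cfsg.Agent.Lib.SpOrder.card_Sp (F := F) d
  rw [Cfsg.Agent.Lib.SpBasic.Sp, hq] at h3
  rw [h3] at h
  rcases (Nat.Prime.dvd_mul hr).1 h with h4 | h4
  · exact absurd (hr.dvd_of_dvd_pow h4) hrq
  · obtain ⟨j, hj, hj2⟩ := (Prime.dvd_finsetProd_iff hr.prime _).1 h4
    have hj' : j < d := Finset.mem_range.mp hj
    have hq1 : 1 ≤ q ^ (2 * (j + 1)) := Nat.one_le_pow _ _ (Nat.pos_of_ne_zero (fun h => by
      rw [← hq] at h
      exact Fintype.card_ne_zero h))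
    have h5 : (q : ZMod r) ^ (2 * (j + 1)) = 1 := by
      have h6 := (ZMod.natCast_eq_zero_iff _ _).mpr hj2
      rw [Nat.cast_sub hq1] at h6
      push_cast at h6
      exact sub_eq_zero.mp h6
    have h6 : orderOf (q : ZMod r) ∣ 2 * (j + 1) := orderOf_dvd_of_pow_eq_one h5
    have h7 : blockDim r q ≤ 2 * (j + 1) := by
      unfold blockDim
      split_ifs with hev
      · exact Nat.le_of_dvd (by omega) h6
      · have h8 : orderOf (q : ZMod r) ∣ j + 1 := (Nat.Coprime.dvd_of_dvd_mul_left (by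
          rw [Nat.coprime_two_right]
          exact Nat.not_even_iff_odd.mp hev) h6)
        have := Nat.le_of_dvd (by omega) h8
        omega
    omega

end Cfsg.Agent.Lib.SpGU
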