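import Mathlib
import Cfsg.Agent.Lib.SpGU.Inv
import Cfsg.Agent.Lib.UnitaryOrder

/-!
# The unitary group over the quadratic extension inside the symplectic group
-/

set_option autoImplicit false
set_option linter.unusedSimpArgs false
set_option linter.unusedVariables false
set_option linter.unusedSectionVars false

namespace Cfsg.Agent.Lib.SpGU

open Matrix Module Cfsg Cfsg.Geo
open Cfsg.Agent.Lib.SympForm Cfsg.Agent.Lib.MatConj Cfsg.Agent.Lib.SpInvol

variable {F : Type*} [Field F] {d : ℕ}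

section model

variable {s : F}

/-- The quadratic extension. -/
abbrev LL (s : F) := QuadraticAlgebra F s 0

/-- The coordinates on `L^d`. -/
def PsiE (s : F) (d : ℕ) : (Fin d → LL s) ≃ₗ[F] (Fin d ⊕ Fin d → F) where
  toFun u := Sum.elim (fun j => (u j).im) (fun j => (u j).re)
  invFun x := fun j => ⟨x (Sum.inr j), x (Sum.inl j)⟩
  map_add' u v := by
    funext c
    rcases c with j | j <;> simp
  map_smul' c u := by
    funext e
    rcases e with j | j <;> simp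
  left_inv u := by
    funext j
    rfl
  right_inv x := by
    funext c
    rcases c with j | j <;> rfl

@[simp] theorem PsiE_inl (u : Fin d → LL s) (j : Fin d) : PsiE s d u (Sum.inl j) = (u j).im := rfl
@[simp] theorem PsiE_inr (u : Fin d → LL s) (j : Fin d) : PsiE s d u (Sum.inr j) = (u j).re := rfl

theorem PsiE_omega (u : Fin d → LL s) : PsiE s d ((QuadraticAlgebra.omega : LL s) • u) = Sst s (PsiE s d u) := by
  funext c
  rcases c with j | j <;> simp

/-- The imaginary part as an additive map. -/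
def imHom (s : F) : LL s →+ F where
  toFun := QuadraticAlgebra.im
  map_zero' := rfl
  map_add' _ _ := rfl

end model

section cardL

variable [Fintype F] {s : F} {q : ℕ}

/-- The extension is finite. -/
noncomputable instance instFintypeLL : Fintype (LL s) := Fintype.ofEquiv (F × F) (QuadraticAlgebra.equivProd s 0).symm

theorem card_LL (hq : Fintype.card F = q) : Fintype.card (LL s) = q ^ 2 := by
  rw [Fintype.card_congr (QuadraticAlgebra.equivProd s 0), Fintype.card_prod, hq, pow_two]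

variable [hfact : Fact (∀ r : F, r ^ 2 ≠ s + 0 * r)]

theorem pow_q_eq_star (hq : Fintype.card F = q) (h2 : (2 : F) ≠ 0) (hs : ¬ IsSquare s) (x : LL s) : x ^ q = star x := by
  have hF := card_LL (s := s) hq
  have hc : ringChar F ≠ 2 := by
    intro h
    apply h2
    have := ringChar.Nat.cast_ringChar (R := F)
    rw [h] at this
    simpa using this
  have hs0 : s ≠ 0 := by
    rintro rfl
    exact hs ⟨0, by ring⟩
  have hk : s ^ (q / 2) = -1 := by
    rw [← hq]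
    rcases FiniteField.pow_dichotomy hc hs0 with h | h
    · exact absurd ((FiniteField.isSquare_iff hc hs0).mpr h) hs
    · exact h
  have hqodd : q = 2 * (q / 2) + 1 := by
    have := FiniteField.odd_card_of_char_ne_two hc
    rw [hq] at this
    omega
  have hω : (QuadraticAlgebra.omega : LL s) ^ q = - QuadraticAlgebra.omega := by
    rw [hqodd, pow_succ, pow_mul, pow_two, QuadraticAlgebra.omega_mul_omega_eq_mk]
    have h1 : (⟨s, 0⟩ : LL s) = algebraMap F (LL s) s := by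
      ext <;> simp
    rw [h1, ← map_pow, hk]
    ext <;> simp
  have hal : ∀ a : F, (algebraMap F (LL s) a) ^ q = algebraMap F (LL s) a := by
    intro a
    rw [← map_pow, ← hq, FiniteField.pow_card]
  have hx : x = algebraMap F (LL s) x.re + algebraMap F (LL s) x.im * QuadraticAlgebra.omega := by
    ext <;> simp
  conv_lhs => rw [hx]
  rw [Cfsg.Agent.Lib.HermCount.add_pow_q hF, mul_pow, hal, hal, hω]
  ext <;> simp

/-- The symplectic form is minus the imaginary part of the hermitian form. -/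
theorem form_Psi (hq : Fintype.card F = q) (h2 : (2 : F) ≠ 0) (hs : ¬ IsSquare s) (u v : Fin d → LL s) :
    sympForm d F (PsiE s d u) (PsiE s d v) = - (hermForm d (LL s) q u v).im := by
  rw [sympForm_apply, hermForm]
  have h1 : (∑ i, u i * v i ^ q).im = imHom s (∑ i, u i * v i ^ q) := rfl
  rw [h1, map_sum, ← Finset.sum_neg_distrib]
  refine Finset.sum_congr rfl fun i _ => ?_
  rw [pow_q_eq_star hq h2 hs]
  show _ = - (u i * star (v i)).im
  simp only [PsiE_inl, PsiE_inr, QuadraticAlgebra.im_mul, QuadraticAlgebra.re_star, QuadraticAlgebra.im_star]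
  simp
  ring

end cardL

section rho

variable {s : F} [hfact : Fact (∀ r : F, r ^ 2 ≠ s + 0 * r)]

/-- Matrices over `L` as `F`-linear automorphisms. -/
def lE (g : GL (Fin d) (LL s)) : (Fin d → LL s) ≃ₗ[F] (Fin d → LL s) where
  toFun u := (g : Matrix (Fin d) (Fin d) (LL s)) *ᵥ u
  invFun u := ((g⁻¹ : GL (Fin d) (LL s)) : Matrix (Fin d) (Fin d) (LL s)) *ᵥ u
  map_add' u v := Matrix.mulVec_add _ _ _
  map_smul' c u := Matrix.mulVec_smul _ _ _
  left_inv u := by
    show ((g⁻¹ : GL (Fin d) (LL s)) : Matrix (Fin d) (Fin d) (LL s)) *ᵥ ((g : Matrix (Fin d) (Fin d) (LL s)) *ᵥ u) = u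
    rw [Matrix.mulVec_mulVec, ← Units.val_mul, inv_mul_cancel]
    exact Matrix.one_mulVec u
  right_inv u := by
    show (g : Matrix (Fin d) (Fin d) (LL s)) *ᵥ (((g⁻¹ : GL (Fin d) (LL s)) : Matrix (Fin d) (Fin d) (LL s)) *ᵥ u) = u
    rw [Matrix.mulVec_mulVec, ← Units.val_mul, mul_inv_cancel]
    exact Matrix.one_mulVec u

/-- The function underlying the embedding. -/
noncomputable def rhoFun (g : GL (Fin d) (LL s)) : GL (Fin d ⊕ Fin d) F :=
  glOfEquiv ((PsiE s d).symm.trans ((lE g).trans (PsiE s d)))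

theorem rhoFun_mulVec (g : GL (Fin d) (LL s)) (x : Fin d ⊕ Fin d → F) :
    (rhoFun g : Matrix (Fin d ⊕ Fin d) (Fin d ⊕ Fin d) F) *ᵥ x = PsiE s d ((g : Matrix (Fin d) (Fin d) (LL s)) *ᵥ (PsiE s d).symm x) := by
  rw [rhoFun, glOfEquiv_mulVec]
  rfl

theorem rhoFun_mulVec' (g : GL (Fin d) (LL s)) (u : Fin d → LL s) :
    (rhoFun g : Matrix (Fin d ⊕ Fin d) (Fin d ⊕ Fin d) F) *ᵥ (PsiE s d u) = PsiE s d ((g : Matrix (Fin d) (Fin d) (LL s)) *ᵥ u) := by
  rw [rhoFun_mulVec, LinearEquiv.symm_apply_apply]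

/-- The embedding. -/
noncomputable def rho : GL (Fin d) (LL s) →* GL (Fin d ⊕ Fin d) F where
  toFun := rhoFun
  map_one' := by
    apply Units.ext
    apply mat_eq_of_mulVec
    intro x
    rw [rhoFun_mulVec, Units.val_one, Matrix.one_mulVec, Units.val_one, Matrix.one_mulVec, LinearEquiv.apply_symm_apply]
  map_mul' g h := by
    apply Units.ext
    apply mat_eq_of_mulVec
    intro x
    rw [rhoFun_mulVec, Units.val_mul, ← Matrix.mulVec_mulVec, Units.val_mul, ← Matrix.mulVec_mulVec, rhoFun_mulVec h, rhoFun_mulVec g, LinearEquiv.symm_apply_apply]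

theorem rho_mulVec' (g : GL (Fin d) (LL s)) (u : Fin d → LL s) :
    (rho g : Matrix (Fin d ⊕ Fin d) (Fin d ⊕ Fin d) F) *ᵥ (PsiE s d u) = PsiE s d ((g : Matrix (Fin d) (Fin d) (LL s)) *ᵥ u) :=
  rhoFun_mulVec' g u

theorem rho_inj : Function.Injective (rho : GL (Fin d) (LL s) →* GL (Fin d ⊕ Fin d) F) := by
  intro g h hgh
  apply Units.ext
  apply Matrix.toLin'.injective
  apply LinearMap.ext
  intro u
  rw [Matrix.toLin'_apply, Matrix.toLin'_apply]
  apply (PsiE s d).injective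
  rw [← rho_mulVec', ← rho_mulVec', hgh]

theorem rho_comm (g : GL (Fin d) (LL s)) (x : Fin d ⊕ Fin d → F) :
    (rho g : Matrix (Fin d ⊕ Fin d) (Fin d ⊕ Fin d) F) *ᵥ (Sst s x) = (1 : F) • Sst s ((rho g : Matrix (Fin d ⊕ Fin d) (Fin d ⊕ Fin d) F) *ᵥ x) := by
  rw [one_smul]
  obtain ⟨u, rfl⟩ := (PsiE s d).surjective x
  rw [← PsiE_omega, rho_mulVec', rho_mulVec', ← PsiE_omega, Matrix.mulVec_smul]

theorem rho_mem [Fintype F] {q : ℕ} (hq : Fintype.card F = q) (h2 : (2 : F) ≠ 0) (hs : ¬ IsSquare s) (g : GL (Fin d) (LL s)) (hg : g ∈ GU d (LL s) q) :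
    rho g ∈ spGL d F := by
  rw [spGL_iff]
  intro x y
  obtain ⟨u, rfl⟩ := (PsiE s d).surjective x
  obtain ⟨v, rfl⟩ := (PsiE s d).surjective y
  rw [rho_mulVec', rho_mulVec', form_Psi hq h2 hs, form_Psi hq h2 hs]
  have h1 : hermForm d (LL s) q ((g : Matrix (Fin d) (Fin d) (LL s)) *ᵥ u) ((g : Matrix (Fin d) (Fin d) (LL s)) *ᵥ v) = hermForm d (LL s) q u v := hg u v
  rw [h1]

end rho

/-- Conjugating a commuting or anticommuting element into the normalizer. -/
theorem conj_normalizes {K : Subalgebra F (Matrix (Fin d ⊕ Fin d) (Fin d ⊕ Fin d) F)} {s : F} {T : Matrix (Fin d ⊕ Fin d) (Fin d ⊕ Fin d) F} (hT : KStd K s T) {g₀ : GL (Fin d ⊕ Fin d) F}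
    (hg₀T : ∀ u, T *ᵥ ((g₀ : Matrix (Fin d ⊕ Fin d) (Fin d ⊕ Fin d) F) *ᵥ u) = (g₀ : Matrix (Fin d ⊕ Fin d) (Fin d ⊕ Fin d) F) *ᵥ (Sst s u))
    {y : GL (Fin d ⊕ Fin d) F} {ε : F} (hε : ε ≠ 0)
    (hy : ∀ u, (y : Matrix (Fin d ⊕ Fin d) (Fin d ⊕ Fin d) F) *ᵥ (Sst s u) = ε • Sst s ((y : Matrix (Fin d ⊕ Fin d) (Fin d ⊕ Fin d) F) *ᵥ u)) :
    g₀ * y * g₀⁻¹ ∈ subalgebraNormalizer K := by
  apply mem_normalizer_of_conj hT _ ε hε
  apply mat_eq_of_mulVec
  intro v
  obtain ⟨u, rfl⟩ : ∃ u, v = (g₀ : Matrix (Fin d ⊕ Fin d) (Fin d ⊕ Fin d) F) *ᵥ u := ⟨((g₀⁻¹ : GL (Fin d ⊕ Fin d) F) : Matrix (Fin d ⊕ Fin d) (Fin d ⊕ Fin d) F) *ᵥ v, (gl_mulVec_inv g₀ v).symm⟩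
  have h3 : ∀ w, ((g₀ * y * g₀⁻¹ : GL (Fin d ⊕ Fin d) F) : Matrix (Fin d ⊕ Fin d) (Fin d ⊕ Fin d) F) *ᵥ ((g₀ : Matrix (Fin d ⊕ Fin d) (Fin d ⊕ Fin d) F) *ᵥ w) =
      (g₀ : Matrix (Fin d ⊕ Fin d) (Fin d ⊕ Fin d) F) *ᵥ ((y : Matrix (Fin d ⊕ Fin d) (Fin d ⊕ Fin d) F) *ᵥ w) := by
    intro w
    rw [Units.val_mul, Units.val_mul, ← Matrix.mulVec_mulVec, ← Matrix.mulVec_mulVec, gl_inv_mulVec]
  rw [Matrix.smul_mulVec, ← Matrix.mulVec_mulVec, ← Matrix.mulVec_mulVec, hg₀T, h3, hy, Matrix.mulVec_smul, h3, hg₀T]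

end Cfsg.Agent.Lib.SpGU
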