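import Mathlib
import Cfsg.Agent.Lib.SpGU.GUHom
import Cfsg.Agent.Lib.SpOrder
import Cfsg.Agent.Lib.IsomBlock

/-!
# The index of the normalizer of `K` is prime to `r` when `i ≡ 2 (4)`
-/

set_option autoImplicit false
set_option linter.unusedSimpArgs false
set_option linter.unusedVariables false
set_option linter.unusedSectionVars false

namespace Cfsg.Agent.Lib.SpGU

open Matrix Module Cfsg Cfsg.Geo
open Cfsg.Agent.Lib.SympForm Cfsg.Agent.Lib.MatConj Cfsg.Agent.Lib.SpInvol

variable {F : Type*} [Field F] {d : ℕ}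
variable {K : Subalgebra F (Matrix (Fin d ⊕ Fin d) (Fin d ⊕ Fin d) F)}

theorem relIndex_mul_card' {G : Type*} [Group G] {P S : Subgroup G} (h : P ≤ S) : P.relIndex S * Nat.card P = Nat.card S := by
  have h1 := (P.subgroupOf S).index_mul_card
  rwa [Nat.card_congr (Subgroup.subgroupOfEquivOfLe h).toEquiv] at h1

/-- The order of `spGL`. -/
theorem card_spGL'' : Nat.card (Cfsg.spGL d F) = Nat.card (symplecticGroup (Fin d) F) := by
  classical
  let f : symplecticGroup (Fin d) F → Cfsg.spGL d F := fun A =>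
    ⟨⟨A.1, (A⁻¹ : symplecticGroup (Fin d) F).1, congrArg Subtype.val (mul_inv_cancel A),
      congrArg Subtype.val (inv_mul_cancel A)⟩, fun u v => (mem_symplecticGroup_iff_preserves _).1 A.2 u v⟩
  have hf : Function.Bijective f := by
    constructor
    · intro A A' h
      apply Subtype.ext
      exact congrArg (fun x : Cfsg.spGL d F => (x.1 : Matrix (Fin d ⊕ Fin d) (Fin d ⊕ Fin d) F)) h
    · intro x
      refine ⟨⟨x.1.1, (mem_symplecticGroup_iff_preserves _).2 x.2⟩, ?_⟩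
      apply Subtype.ext
      apply Units.ext
      rfl
  exact (Nat.card_congr (Equiv.ofBijective f hf)).symm

/-- The factors of the index. -/
def BB (q j : ℕ) : ℕ := if Even j then q ^ (j + 1) - 1 else q ^ (j + 1) + 1

/-- The factors of the unitary order. -/
def AA (q j : ℕ) : ℕ := if Even j then q ^ (j + 1) + 1 else q ^ (j + 1) - 1

theorem AA_mul_BB {q : ℕ} (hq : 1 ≤ q) (j : ℕ) : AA q j * BB q j = q ^ (2 * (j + 1)) - 1 := by
  have h1 : 1 ≤ q ^ (j + 1) := Nat.one_le_pow _ _ hq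
  obtain ⟨a, ha⟩ := Nat.exists_eq_add_of_le h1
  have h3 : q ^ (2 * (j + 1)) = (q ^ (j + 1)) * (q ^ (j + 1)) := by
    rw [two_mul, pow_add]
  unfold AA BB
  rw [h3, ha]
  split_ifs
  · simp only [Nat.add_sub_cancel_left]
    have : (1 + a) * (1 + a) = (1 + a + 1) * a + 1 := by ring
    rw [this, Nat.add_sub_cancel]
  · simp only [Nat.add_sub_cancel_left]
    have : (1 + a) * (1 + a) = a * (1 + a + 1) + 1 := by ring
    rw [this, Nat.add_sub_cancel]

theorem not_dvd_BB {r q : ℕ} [hrf : Fact r.Prime] (hr2 : r ≠ 2) (hq : 1 ≤ q) (hmod : orderOf (q : ZMod r) % 4 = 2) (j : ℕ) : ¬ r ∣ BB q j := by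
  intro h
  set i := orderOf (q : ZMod r) with hi
  have h1 : 1 ≤ q ^ (j + 1) := Nat.one_le_pow _ _ hq
  have hone : (-1 : ZMod r) ≠ 1 := by
    intro h3
    have h4 : (2 : ZMod r) = 0 := by linear_combination -h3
    have h5 : ((2 : ℕ) : ZMod r) = 0 := by exact_mod_cast h4
    have h6 := (ZMod.natCast_eq_zero_iff _ _).mp h5
    exact hr2 ((Nat.prime_dvd_prime_iff_eq hrf.out Nat.prime_two).mp h6)
  unfold BB at h
  split_ifs at h with hj
  · have h3 := (ZMod.natCast_eq_zero_iff _ _).mpr h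
    rw [Nat.cast_sub h1] at h3
    push_cast at h3
    have h4 : i ∣ j + 1 := orderOf_dvd_of_pow_eq_one (sub_eq_zero.mp h3)
    obtain ⟨k, hk⟩ := h4
    obtain ⟨l, hl⟩ := hj
    have h5 : (j + 1) % 2 = 1 := by omega
    have h6 : i % 2 = 0 := by omega
    rw [hk, Nat.mul_mod, h6] at h5
    simp at h5
  · have h3 := (ZMod.natCast_eq_zero_iff _ _).mpr h
    push_cast at h3
    have h4 : (q : ZMod r) ^ (j + 1) = -1 := eq_neg_of_add_eq_zero_left h3
    have h5 : (q : ZMod r) ^ (2 * (j + 1)) = 1 := by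
      rw [two_mul, pow_add, h4]
      ring
    have h6 : i ∣ 2 * (j + 1) := orderOf_dvd_of_pow_eq_one h5
    obtain ⟨e, he⟩ : ∃ e, i = 2 * e := ⟨i / 2, by omega⟩
    have he0 : e ≠ 0 := by
      rintro rfl
      omega
    have hee : e % 2 = 1 := by omega
    have h7 : e ∣ j + 1 := by
      rw [he] at h6
      exact Nat.dvd_of_mul_dvd_mul_left (by omega) h6
    obtain ⟨l, hl⟩ := h7
    have h8 : (q : ZMod r) ^ e * (q : ZMod r) ^ e = 1 := by
      rw [← pow_add, show e + e = i by omega, hi, pow_orderOf_eq_one]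
    have h9 : (q : ZMod r) ^ e ≠ 1 := pow_ne_one_of_lt_orderOf he0 (by omega)
    have h10 : ((q : ZMod r) ^ e - 1) * ((q : ZMod r) ^ e + 1) = 0 := by linear_combination h8
    have h11 : (q : ZMod r) ^ e = -1 := eq_neg_of_add_eq_zero_left ((mul_eq_zero.mp h10).resolve_left (sub_ne_zero.mpr h9))
    have hleven : Even l := by
      have hjo : Even (j + 1) := by
        have := Nat.not_even_iff_odd.mp hj
        exact this.add_one
      rw [hl, Nat.even_mul] at hjo
      rcases hjo with h12 | h12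
      · exfalso
        obtain ⟨m, hm⟩ := h12
        omega
      · exact h12
    rw [hl, pow_mul, h11, hleven.neg_one_pow] at h4
    exact hone h4.symm

/-- The main index computation. -/
theorem not_dvd_index [Fintype F] {r q : ℕ} [hrf : Fact r.Prime] (hq : Fintype.card F = q) (hr2 : r ≠ 2) (hrF : (r : F) ≠ 0) (h2 : (2 : F) ≠ 0)
    {s : F} (hs : ¬ IsSquare s) {T : Matrix (Fin d ⊕ Fin d) (Fin d ⊕ Fin d) F} (hT : KStd K s T)
    (hmod : orderOf (q : ZMod r) % 4 = 2) : ¬ r ∣ (subalgebraNormalizer K).relIndex (spGL d F) := by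
  classical
  intro hdvd
  have hr : r.Prime := hrf.out
  have hq1 : 1 ≤ q := by
    rw [← hq]
    exact Fintype.card_pos
  have hs0 : s ≠ 0 := by
    rintro rfl
    exact hs ⟨0, by ring⟩
  haveI hfact : Fact (∀ t : F, t ^ 2 ≠ s + 0 * t) := ⟨fun t ht => hs ⟨t, by rw [zero_mul, add_zero] at ht; rw [← ht]; ring⟩⟩
  obtain ⟨g₀, hg₀, hg₀T⟩ := exists_std_conj h2 hs0 hT
  let φ : GU d (LL s) q →* GL (Fin d ⊕ Fin d) F :=
    (MulAut.conj g₀).toMonoidHom.comp ((rho (s := s) (d := d)).comp (GU d (LL s) q).subtype)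
  have hφa : ∀ g, φ g = g₀ * rho (g : GL (Fin d) (LL s)) * g₀⁻¹ := fun g => rfl
  have hφinj : Function.Injective φ := by
    intro g h hgh
    rw [hφa, hφa] at hgh
    have h1 : rho (g : GL (Fin d) (LL s)) = rho (h : GL (Fin d) (LL s)) := by
      simpa using hgh
    exact Subtype.ext (rho_inj h1)
  let P := φ.range
  have hPcard : Nat.card P = Nat.card (GU d (LL s) q) := (Nat.card_congr (MonoidHom.ofInjective hφinj).toEquiv).symm
  have hPS : P ≤ spGL d F := by
    rintro _ ⟨g, rfl⟩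
    rw [hφa]
    exact (spGL d F).mul_mem ((spGL d F).mul_mem hg₀ (rho_mem hq h2 hs _ g.2)) ((spGL d F).inv_mem hg₀)
  have hPN : P ≤ subalgebraNormalizer K := by
    rintro _ ⟨g, rfl⟩
    rw [hφa]
    exact conj_normalizes hT hg₀T one_ne_zero (rho_comm _)
  have hd1 : (subalgebraNormalizer K).relIndex (spGL d F) ∣ P.relIndex (spGL d F) := Subgroup.relIndex_dvd_of_le_left _ hPN
  have hL := relIndex_mul_card' hPS
  have hGU := Cfsg.Agent.Lib.UnitaryOrder.card_GU (card_LL (s := s) hq) d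
  have hcardS : Nat.card (symplecticGroup (Fin d) F) = q ^ (d ^ 2) * ∏ i ∈ Finset.range d, (AA q i * BB q i) := by
    have h3 := Cfsg.Agent.Lib.SpOrder.card_Sp (F := F) d
    rw [Cfsg.Agent.Lib.SpBasic.Sp, hq] at h3
    rw [h3]
    congr 1
    exact Finset.prod_congr rfl fun j _ => (AA_mul_BB hq1 j).symm
  have hGUpos : 0 < Nat.card (GU d (LL s) q) := Nat.card_pos
  rw [hPcard, card_spGL'', hcardS] at hL
  have hA : (∏ i ∈ Finset.range d, (if Even i then q ^ (i + 1) + 1 else q ^ (i + 1) - 1)) = ∏ i ∈ Finset.range d, AA q i := rfl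
  rw [hA] at hGU
  rw [Finset.prod_mul_distrib] at hL
  have hE : d * (d - 1) / 2 ≤ d ^ 2 := by
    have h1 : d * (d - 1) ≤ d * d := Nat.mul_le_mul_left _ (Nat.sub_le _ _)
    have h3 : d * (d - 1) / 2 ≤ d * (d - 1) := Nat.div_le_self _ _
    rw [pow_two]
    omega
  obtain ⟨E, hE⟩ := Nat.exists_eq_add_of_le hE
  have hR : P.relIndex (spGL d F) = q ^ E * ∏ i ∈ Finset.range d, BB q i := by
    apply Nat.eq_of_mul_eq_mul_right hGUpos
    rw [hL, hGU, hE, pow_add]
    ring
  have hfin : r ∣ q ^ E * ∏ i ∈ Finset.range d, BB q i := by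
    rw [← hR]
    exact hdvd.trans hd1
  rcases (Nat.Prime.dvd_mul hr).1 hfin with h4 | h4
  · exact Cfsg.Agent.Lib.IsomBlock.not_dvd_card hq hrF (hr.dvd_of_dvd_pow h4)
  · obtain ⟨j, -, hj2⟩ := (Prime.dvd_finsetProd_iff hr.prime _).1 h4
    exact not_dvd_BB hr2 hq1 hmod j hj2

end Cfsg.Agent.Lib.SpGU
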