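import Mathlib
import Cfsg.Agent.Lib.SpGU.KFacts
import Cfsg.Agent.Lib.SpGU.Inv
import Cfsg.Agent.Lib.SympT

/-!
# Symplectic transvections do not normalize `K`
-/

set_option autoImplicit false
set_option linter.unusedSimpArgs false
set_option linter.unusedVariables false
set_option linter.unusedSectionVars false

namespace Cfsg.Agent.Lib.SpGU

open Matrix Module Cfsg Cfsg.Geo
open Cfsg.Agent.Lib.SympForm Cfsg.Agent.Lib.SympT

variable {F : Type*} [Field F] {d : ℕ}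
variable {K : Subalgebra F (Matrix (Fin d ⊕ Fin d) (Fin d ⊕ Fin d) F)}

local notation "hfS" => (sympForm_isSymplectic (m := d) (F := F))

theorem tvS_pow' (v : Fin d ⊕ Fin d → F) (c : F) (n : ℕ) : tvS hfS v c ^ n = tvS hfS v ((n : F) * c) := by
  induction n with
  | zero => simp [tvS_zero]
  | succ n ih =>
    rw [pow_succ, ih, tvS_add]
    congr 1
    push_cast
    ring

theorem exists_transv (h2 : (2 : F) ≠ 0) (hd : 1 ≤ d) {s : F} (hs : ¬ IsSquare s) {T : Matrix (Fin d ⊕ Fin d) (Fin d ⊕ Fin d) F} (hT : KStd K s T)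
    {p : ℕ} [hp : Fact p.Prime] [CharP F p] :
    ∃ x ∈ spGL d F, (∃ z : F, ((x ^ p : GL (Fin d ⊕ Fin d) F) : Matrix (Fin d ⊕ Fin d) (Fin d ⊕ Fin d) F) = z • (1 : Matrix (Fin d ⊕ Fin d) (Fin d ⊕ Fin d) F)) ∧
      (∀ z : F, (x : Matrix (Fin d ⊕ Fin d) (Fin d ⊕ Fin d) F) ≠ z • (1 : Matrix (Fin d ⊕ Fin d) (Fin d ⊕ Fin d) F)) ∧
      ¬ ∃ g ∈ spGL d F, g⁻¹ * x * g ∈ subalgebraNormalizer K := by
  classical
  have hpF : (p : F) = 0 := CharP.cast_eq_zero F p
  have hp2 : p ≠ 2 := by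
    rintro rfl
    apply h2
    exact_mod_cast hpF
  have hpodd : Odd p := hp.out.odd_of_ne_two hp2
  let i : Fin d := ⟨0, hd⟩
  let w : Fin d ⊕ Fin d → F := Pi.single (Sum.inl i) 1
  have hw : w ≠ 0 := by
    intro h
    have := congrFun h (Sum.inl i)
    simp [w] at this
  have hpow : ∀ v : Fin d ⊕ Fin d → F, tvS hfS v 1 ^ p = 1 := by
    intro v
    rw [tvS_pow', hpF, zero_mul, tvS_zero]
  have hs0 : s ≠ 0 := by
    rintro rfl
    exact hs ⟨0, by ring⟩
  refine ⟨tvS hfS w 1, tvS_pres hfS w 1, ⟨1, by rw [hpow, one_smul]; rfl⟩, ?_, ?_⟩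
  · intro z hz
    have h1 := tvS_apply hfS w 1 w
    rw [hz, Matrix.smul_mulVec, Matrix.one_mulVec, sympForm_self, mul_zero, zero_smul, add_zero] at h1
    have hz1 : z = 1 := by
      have h3 := congrFun h1 (Sum.inl i)
      simpa [w] using h3
    obtain ⟨u, hu⟩ := exists_sympForm_ne_zero hw
    have h3 := tvS_apply hfS w 1 u
    rw [hz, hz1, one_smul, Matrix.one_mulVec, one_mul] at h3
    have h4 : sympForm d F u w • w = 0 := by
      have h5 := congrArg (fun t => t - u) h3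
      simpa using h5.symm
    rcases smul_eq_zero.mp h4 with h5 | h5
    · apply hu
      rw [sympForm_antisymm, h5, neg_zero]
    · exact hw h5
  · rintro ⟨g, hg, hN⟩
    have hg' : g⁻¹ ∈ preserving (glToMat (Fin d ⊕ Fin d) F) (sympForm d F) := (spGL d F).inv_mem hg
    have hy : g⁻¹ * tvS hfS w 1 * g = tvS hfS (((g⁻¹ : GL (Fin d ⊕ Fin d) F) : Matrix (Fin d ⊕ Fin d) (Fin d ⊕ Fin d) F) *ᵥ w) 1 := by
      have h1 := tvS_conj hfS hg' w 1
      rwa [inv_inv] at h1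
    rw [hy] at hN
    set w' := ((g⁻¹ : GL (Fin d ⊕ Fin d) F) : Matrix (Fin d ⊕ Fin d) (Fin d ⊕ Fin d) F) *ᵥ w with hw'def
    have hw' : w' ≠ 0 := by
      intro h
      apply hw
      have h1 := gl_mulVec_inv g w
      rw [← hw'def, h, Matrix.mulVec_zero] at h1
      exact h1.symm
    have hcomm := comm_of_normalizer hT hs h2 _ hN hpodd (z := 1) (by rw [hpow, one_smul]; rfl)
    obtain ⟨u, hu⟩ := exists_sympForm_ne_zero hw'
    have hu' : sympForm d F u w' ≠ 0 := by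
      intro h
      apply hu
      rw [sympForm_antisymm, h, neg_zero]
    have h1 : ((tvS hfS w' 1 : GL (Fin d ⊕ Fin d) F) : Matrix (Fin d ⊕ Fin d) (Fin d ⊕ Fin d) F) *ᵥ (T *ᵥ u) =
        T *ᵥ (((tvS hfS w' 1 : GL (Fin d ⊕ Fin d) F) : Matrix (Fin d ⊕ Fin d) (Fin d ⊕ Fin d) F) *ᵥ u) := by
      rw [Matrix.mulVec_mulVec, Matrix.mulVec_mulVec, hcomm]
    rw [tvS_apply, tvS_apply, Matrix.mulVec_add, Matrix.mulVec_smul, one_mul, one_mul] at h1
    have h3 : T *ᵥ w' = (sympForm d F u w')⁻¹ • (sympForm d F (T *ᵥ u) w' • w') := by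
      have h4 : sympForm d F (T *ᵥ u) w' • w' = sympForm d F u w' • (T *ᵥ w') := add_left_cancel h1
      rw [h4, smul_smul, inv_mul_cancel₀ hu', one_smul]
    set lam := (sympForm d F u w')⁻¹ * sympForm d F (T *ᵥ u) w' with hlam
    have h5 : T *ᵥ w' = lam • w' := by
      rw [h3, smul_smul]
    have h6 : T *ᵥ (T *ᵥ w') = s • w' := by
      rw [Matrix.mulVec_mulVec, hT.sq, Matrix.smul_mulVec, Matrix.one_mulVec]
    rw [h5, Matrix.mulVec_smul, h5, smul_smul] at h6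
    have h7 : (lam * lam - s) • w' = 0 := by
      rw [sub_smul, h6, sub_self]
    rcases smul_eq_zero.mp h7 with h8 | h8
    · exact hs ⟨lam, (sub_eq_zero.mp h8).symm⟩
    · exact hw' h8

end Cfsg.Agent.Lib.SpGU
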